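import Mathlib

/-!
A finite semifield of characteristic 2 in which the left multiplications and the right multiplications
are closed under inversion is a field.
-/

set_option autoImplicit false
set_option linter.all false

namespace Cfsg.Agent.Classif.Semifield

/-- In an additive set of endomorphisms containing `1` whose nonzero members have inverses in the set,
the product `a * b * a` is again a member (Hua's identity). -/
theorem mem_triple {E : Type*} [Ring E] (S : AddSubgroup E)
    (hinv : ∀ a ∈ S, a ≠ 0 → ∃ a' ∈ S, a' * a = 1 ∧ a * a' = 1)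
    {a b : E} (ha : a ∈ S) (hb : b ∈ S) : a * b * a ∈ S := by
  rcases eq_or_ne a 0 with rfl | ha0
  · simp
  rcases eq_or_ne b 0 with rfl | hb0
  · simp
  obtain ⟨a', ha', ha'a, haa'⟩ := hinv a ha ha0
  obtain ⟨b', hb', hb'b, hbb'⟩ := hinv b hb hb0
  rcases eq_or_ne (b' - a) 0 with h | hc0
  · have : b' = a := sub_eq_zero.mp h
    subst this
    rwa [hb'b, one_mul]
  obtain ⟨c', hc', hc'c, hcc'⟩ := hinv _ (S.sub_mem hb' ha) hc0
  have hsum : a' + c' ∈ S := S.add_mem ha' hc'
  have h1 : a' + c' = a' * b' * c' := by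
    calc a' + c' = a' * ((b' - a) * c') + (a' * a) * c' := by rw [hcc', ha'a, mul_one, one_mul]
      _ = a' * b' * c' := by noncomm_ring
  have h2 : (a' + c') * ((b' - a) * b * a) = 1 := by
    rw [h1]
    calc a' * b' * c' * ((b' - a) * b * a) = a' * b' * (c' * (b' - a)) * b * a := by noncomm_ring
      _ = a' * (b' * b) * a := by rw [hc'c]; noncomm_ring
      _ = 1 := by rw [hb'b, mul_one, ha'a]
  rcases eq_or_ne (a' + c') 0 with h | hne
  · rw [h, zero_mul] at h2
    have : a * b * a = a * b * a * 1 := (mul_one _).symm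
    rw [this, ← h2, mul_zero]
    exact S.zero_mem
  obtain ⟨d, hd, hdl, hdr⟩ := hinv _ hsum hne
  have hd' : d = (b' - a) * b * a := by
    calc d = d * ((a' + c') * ((b' - a) * b * a)) := by rw [h2, mul_one]
      _ = (b' - a) * b * a := by rw [← mul_assoc, hdl, one_mul]
  have : a * b * a = a - (b' - a) * b * a := by
    rw [sub_mul, sub_mul, hb'b, one_mul]; noncomm_ring
  rw [this, ← hd']
  exact S.sub_mem ha hd

variable {A : Type*} [AddCommGroup A] [Finite A]

/-- Left multiplications. -/
def Lm (m : A →+ A →+ A) : A →+ AddMonoid.End A := m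

/-- Right multiplications. -/
def Rm (m : A →+ A →+ A) : A →+ AddMonoid.End A := AddMonoidHom.flip m

variable {m : A →+ A →+ A} {one : A}

/-- The hypotheses: unit, and inverse closed left and right multiplications. -/
structure Data (m : A →+ A →+ A) (one : A) : Prop where
  nontriv : one ≠ 0
  one_mul' : ∀ y, m one y = y
  mul_one' : ∀ x, m x one = x
  two : ∀ x : A, x + x = 0
  invL : ∀ x, x ≠ 0 → ∃ y, Lm m y * Lm m x = 1
  invR : ∀ x, x ≠ 0 → ∃ y, Rm m y * Rm m x = 1

theorem Data.L_one (h : Data m one) : Lm m one = 1 := AddMonoidHom.ext h.one_mul'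
theorem Data.R_one (h : Data m one) : Rm m one = 1 := AddMonoidHom.ext h.mul_one'
theorem Data.L_eval (h : Data m one) (x : A) : Lm m x one = x := h.mul_one' x
theorem Data.R_eval (h : Data m one) (x : A) : Rm m x one = x := h.one_mul' x

theorem Data.flip (h : Data m one) : Data (AddMonoidHom.flip m) one :=
  ⟨h.nontriv, h.mul_one', h.one_mul', h.two, h.invR, h.invL⟩

theorem Data.no_zero (h : Data m one) {x w : A} (hx : x ≠ 0) (he : m x w = 0) : w = 0 := by
  obtain ⟨y, hy⟩ := h.invL x hx
  have := DFunLike.congr_fun hy w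
  have h' : Lm m y (Lm m x w) = w := this
  rwa [show Lm m x w = 0 from he, map_zero, eq_comm] at h'

theorem Data.triple (h : Data m one) (a b : A) :
    Lm m a * Lm m b * Lm m a = Lm m (m a (m b a)) := by
  have key := mem_triple (Lm m).range (fun u hu hu0 => by
    obtain ⟨x, rfl⟩ := hu
    have hx : x ≠ 0 := fun e => hu0 (by rw [e, map_zero])
    obtain ⟨y, hy⟩ := h.invL x hx
    refine ⟨Lm m y, ⟨y, rfl⟩, hy, ?_⟩
    have hsurj : Function.Surjective (Lm m x : A → A) :=
      Finite.injective_iff_surjective.mp (fun u v e => by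
        have := congrArg (Lm m y) e
        rwa [show Lm m y (Lm m x u) = u from DFunLike.congr_fun hy u,
          show Lm m y (Lm m x v) = v from DFunLike.congr_fun hy v] at this)
    refine AddMonoidHom.ext fun v => ?_
    obtain ⟨u, rfl⟩ := hsurj v
    show Lm m x (Lm m y (Lm m x u)) = Lm m x u
    rw [show Lm m y (Lm m x u) = u from DFunLike.congr_fun hy u]) ⟨a, rfl⟩ ⟨b, rfl⟩
  obtain ⟨c, hc⟩ := key
  have e := DFunLike.congr_fun hc one
  rw [h.L_eval] at e
  rw [← hc, e]
  show Lm m (Lm m a (Lm m b (Lm m a one))) = _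
  rw [h.L_eval]
  rfl

theorem Data.sq (h : Data m one) (a : A) : Lm m a * Lm m a = Lm m (m a a) := by
  have := h.triple a one
  rwa [h.L_one, mul_one, h.one_mul'] at this

theorem Data.lin (h : Data m one) (a b w : A) :
    m a (m b w) + m b (m a w) = m (m a b + m b a) w := by
  have h1 : m (a + b) (m (a + b) w) = m (m (a + b) (a + b)) w := DFunLike.congr_fun (h.sq (a + b)) w
  have ha : m a (m a w) = m (m a a) w := DFunLike.congr_fun (h.sq a) w
  have hb : m b (m b w) = m (m b b) w := DFunLike.congr_fun (h.sq b) w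
  simp only [map_add, AddMonoidHom.add_apply] at h1 ⊢
  rw [ha, hb] at h1
  have h1' : m (m a a) w + m b (m a w) + (m a (m b w) + m (m b b) w) =
      m (m a a) w + m (m b a) w + (m (m a b) w + m (m b b) w) := h1
  calc m a (m b w) + m b (m a w)
      = (m (m a a) w + m b (m a w) + (m a (m b w) + m (m b b) w)) + (m (m a a) w + m (m b b) w) := by
        have z1 := h.two (m (m a a) w); have z2 := h.two (m (m b b) w)
        calc m a (m b w) + m b (m a w)
            = m a (m b w) + m b (m a w) + ((m (m a a) w + m (m a a) w) + (m (m b b) w + m (m b b) w)) := by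
              rw [z1, z2, add_zero, add_zero]
          _ = _ := by abel
    _ = (m (m a a) w + m (m b a) w + (m (m a b) w + m (m b b) w)) + (m (m a a) w + m (m b b) w) := by
        rw [h1']
    _ = _ := by
        have z1 := h.two (m (m a a) w); have z2 := h.two (m (m b b) w)
        calc (m (m a a) w + m (m b a) w + (m (m a b) w + m (m b b) w)) + (m (m a a) w + m (m b b) w)
            = m (m a b) w + m (m b a) w + ((m (m a a) w + m (m a a) w) + (m (m b b) w + m (m b b) w)) := by abel
          _ = _ := by rw [z1, z2, add_zero, add_zero]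

/-- Commuting elements have commuting left multiplications. -/
theorem Data.comm_of_comm (h : Data m one) {a b : A} (e : m a b = m b a) :
    Commute (Lm m a) (Lm m b) := by
  refine AddMonoidHom.ext fun w => ?_
  have := h.lin a b w
  rw [e, h.two, map_zero, AddMonoidHom.zero_apply] at this
  show m a (m b w) = m b (m a w)
  calc m a (m b w) = m a (m b w) + (m b (m a w) + m b (m a w)) := by rw [h.two, add_zero]
    _ = _ := by rw [← add_assoc, this, zero_add]

/-- Flexibility. -/
theorem Data.flex (h : Data m one) (x : A) : Commute (Lm m x) (Rm m x) := by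
  refine AddMonoidHom.ext fun y => ?_
  show m x (m y x) = m (m x y) x
  have h1 := h.lin x y x
  rw [map_add, AddMonoidHom.add_apply] at h1
  have h2 : m (m y x) x = m y (m x x) := DFunLike.congr_fun (h.flip.sq x) y
  rw [h2] at h1
  exact add_right_cancel h1

/-- Powers. -/
def pw (m : A →+ A →+ A) (one : A) (x : A) (n : ℕ) : A := (Lm m x ^ n) one

theorem Data.L_pw (h : Data m one) (x : A) : ∀ n, Lm m (pw m one x n) = Lm m x ^ n
  | 0 => by rw [pow_zero]; exact h.L_one
  | 1 => by rw [pow_one, pw, pow_one, h.L_eval]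
  | n + 2 => by
    have e : Lm m x ^ (n + 2) = Lm m x * Lm m x ^ n * Lm m x := by
      rw [← pow_succ', ← pow_succ]
    have e2 : Lm m x ^ (n + 2) = Lm m (m x (m (pw m one x n) x)) := by
      rw [e, ← Data.L_pw h x n, h.triple]
    rw [show pw m one x (n + 2) = (Lm m x ^ (n + 2)) one from rfl, e2, h.L_eval]

theorem Data.pw_succ' (h : Data m one) (x : A) (n : ℕ) : pw m one x (n + 1) = m (pw m one x n) x := by
  show (Lm m x ^ (n + 1)) one = Lm m (pw m one x n) x
  rw [pow_succ, h.L_pw]
  show (Lm m x ^ n) (Lm m x one) = _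
  rw [h.L_eval]

theorem Data.R_pw (h : Data m one) (x : A) (n : ℕ) : Rm m (pw m one x n) = Rm m x ^ n := by
  have : ∀ k, pw m one x k = pw (AddMonoidHom.flip m) one x k := by
    intro k
    induction k with
    | zero => rfl
    | succ k ih =>
      rw [h.pw_succ', ih]
      show _ = (Lm (AddMonoidHom.flip m) x ^ (k + 1)) one
      rw [pow_succ']
      rfl
  rw [this n]
  exact h.flip.L_pw x n

/-- The subring of endomorphisms generated by a left multiplication. -/
def Kx (m : A →+ A →+ A) (x : A) : Subring (AddMonoid.End A) := Subring.closure {Lm m x}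

theorem mem_Kx (x : A) : Lm m x ∈ Kx m x := Subring.subset_closure rfl

theorem Kx_le_of_mem {x : A} {S : Subring (AddMonoid.End A)} (hx : Lm m x ∈ S) : Kx m x ≤ S :=
  (Subring.closure_le).mpr (by simpa using hx)

/-- An additively closed property that holds for the powers holds on the generated ring. -/
theorem Kx_induction {x : A} {P : AddMonoid.End A → Prop} (h0 : P 0)
    (hadd : ∀ a b, P a → P b → P (a + b)) (hneg : ∀ a, P a → P (-a))
    (hpow : ∀ n : ℕ, P (Lm m x ^ n)) {k : AddMonoid.End A} (hk : k ∈ Kx m x) : P k := by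
  rw [Kx, Subring.mem_closure_iff] at hk
  induction hk using AddSubgroup.closure_induction with
  | mem a ha =>
    obtain ⟨n, rfl⟩ := Submonoid.mem_closure_singleton.mp ha
    exact hpow n
  | zero => exact h0
  | add a b _ _ pa pb => exact hadd a b pa pb
  | neg a _ pa => exact hneg a pa

theorem Data.Kx_eval (h : Data m one) {x : A} {k : AddMonoid.End A} (hk : k ∈ Kx m x) :
    Lm m (k one) = k := by
  refine Kx_induction (P := fun k => Lm m (k one) = k) ?_ ?_ ?_ ?_ hk
  · exact (Lm m).map_zero
  · intro a b ha hb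
    show Lm m (a one + b one) = _
    rw [map_add, ha, hb]
  · intro a ha
    show Lm m (-(a one)) = _
    rw [map_neg, ha]
  · exact h.L_pw x

theorem Data.Kx_commute (h : Data m one) {x : A} {k : AddMonoid.End A} (hk : k ∈ Kx m x)
    {T : AddMonoid.End A} (hT : Commute (Lm m x) T) : Commute k T := by
  refine Kx_induction (P := fun k => Commute k T) ?_ ?_ ?_ ?_ hk
  · exact Commute.zero_left T
  · exact fun a b ha hb => ha.add_left hb
  · exact fun a ha => ha.neg_left
  · exact fun n => hT.pow_left n

/-- Right multiplication by an element of the generated ring commutes with `R x` and with `L x`. -/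
theorem Data.R_commute (h : Data m one) {x : A} {k : AddMonoid.End A} (hk : k ∈ Kx m x)
    {T : AddMonoid.End A} (hT : Commute (Rm m x) T) : Commute (Rm m (k one)) T := by
  refine Kx_induction (P := fun k => Commute (Rm m (k one)) T) ?_ ?_ ?_ ?_ hk
  · show Commute (Rm m 0) T
    rw [map_zero]; exact Commute.zero_left T
  · intro a b ha hb
    show Commute (Rm m (a one + b one)) T
    rw [map_add]; exact ha.add_left hb
  · intro a ha
    show Commute (Rm m (-(a one))) T
    rw [map_neg]; exact ha.neg_left
  · intro n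
    show Commute (Rm m (pw m one x n)) T
    rw [h.R_pw]; exact hT.pow_left n

theorem Data.R_mul (h : Data m one) {x : A} {j k : AddMonoid.End A} (hj : j ∈ Kx m x) (hk : k ∈ Kx m x) :
    Rm m ((j * k) one) = Rm m (k one) * Rm m (j one) := by
  refine Kx_induction (P := fun k => ∀ j ∈ Kx m x, Rm m ((j * k) one) = Rm m (k one) * Rm m (j one))
    ?_ ?_ ?_ ?_ hk j hj
  · intro j _
    show Rm m (j 0) = Rm m 0 * _
    rw [map_zero, map_zero, zero_mul]
  · intro a b ha hb j hj
    show Rm m (j (a one + b one)) = Rm m (a one + b one) * _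
    rw [map_add, map_add, map_add, add_mul, ← ha j hj, ← hb j hj]
    rfl
  · intro a ha j hj
    show Rm m (j (-(a one))) = Rm m (-(a one)) * _
    rw [map_neg, map_neg, map_neg, neg_mul, ← ha j hj]
    rfl
  · intro n j hj
    refine Kx_induction (P := fun j => Rm m ((j * Lm m x ^ n) one) = Rm m ((Lm m x ^ n) one) * Rm m (j one))
      ?_ ?_ ?_ ?_ hj
    · show Rm m 0 = _ * Rm m 0
      rw [map_zero, mul_zero]
    · intro a b ha hb
      show Rm m (a ((Lm m x ^ n) one) + b ((Lm m x ^ n) one)) = _ * Rm m (a one + b one)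
      rw [map_add, map_add, mul_add, ← ha, ← hb]
      rfl
    · intro a ha
      show Rm m (-(a ((Lm m x ^ n) one))) = _ * Rm m (-(a one))
      rw [map_neg, map_neg, mul_neg, ← ha]
      rfl
    · intro i
      rw [← pow_add]
      show Rm m (pw m one x (i + n)) = Rm m (pw m one x n) * Rm m (pw m one x i)
      rw [h.R_pw, h.R_pw, h.R_pw, ← pow_add, add_comm]

/-- Polynomials in an endomorphism commuting with a field of endomorphisms, evaluated on an eigenvector. -/
theorem eval_eigen {K : Type*} [CommRing K] (ι : K →+* AddMonoid.End A) (r : AddMonoid.End A)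
    (hr : ∀ a, Commute (ι a) r) {v : A} {lam : K} (hv : r v = ι lam v) (f : Polynomial K) :
    Polynomial.eval₂RingHom' ι r hr f v = ι (f.eval lam) v := by
  induction f using Polynomial.induction_on' with
  | add p q hp hq =>
    simp only [map_add, Polynomial.eval_add]
    show Polynomial.eval₂RingHom' ι r hr p v + Polynomial.eval₂RingHom' ι r hr q v = ι (p.eval lam) v + ι (q.eval lam) v
    rw [hp, hq]
  | monomial n a =>
    show (Polynomial.monomial n a).eval₂ ι r v = _
    rw [Polynomial.eval₂_monomial, Polynomial.eval_monomial, map_mul]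
    show ι a ((r ^ n) v) = ι a (ι (lam ^ n) v)
    congr 1
    induction n with
    | zero => simp
    | succ n ih =>
      rw [pow_succ', pow_succ', map_mul]
      show r ((r ^ n) v) = ι lam (ι (lam ^ n) v)
      rw [ih]
      show (r * ι (lam ^ n)) v = (ι lam * ι (lam ^ n)) v
      rw [← (hr _).eq]
      show ι (lam ^ n) (r v) = _
      rw [hv]
      show (ι (lam ^ n) * ι lam) v = _
      rw [← map_mul, mul_comm, map_mul]

/-- An element generating a maximal subfield is central: its left and right multiplications agree. -/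
theorem Data.L_eq_R (h : Data m one) (x : A) (hmax : ∀ w, Nat.card (Kx m w) ≤ Nat.card (Kx m x)) :
    Lm m x = Rm m x ∧ (∀ y, m y x = m x y → Lm m y ∈ Kx m x) := by
  classical
  haveI : Finite (AddMonoid.End A) :=
    Finite.of_injective (fun f => (f : A → A)) DFunLike.coe_injective
  haveI : Nontrivial A := ⟨⟨one, 0, h.nontriv⟩⟩
  haveI hEnd : Nontrivial (AddMonoid.End A) := by
    refine ⟨⟨1, 0, fun e => ?_⟩⟩
    exact h.nontriv (DFunLike.congr_fun e one)
  -- any commutative subring made of left multiplications is a domain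
  have hdom : ∀ S : Subring (AddMonoid.End A), (∀ k ∈ S, Lm m (k one) = k) → NoZeroDivisors ↥S := by
    intro S hS
    refine ⟨fun {a b} hab => ?_⟩
    by_contra hc
    push Not at hc
    apply hc.2
    apply Subtype.ext
    refine AddMonoidHom.ext fun w => ?_
    have e := DFunLike.congr_fun (congrArg Subtype.val hab) w
    refine h.no_zero (x := (a : AddMonoid.End A) one) (fun e0 => hc.1 (Subtype.ext ?_)) ?_
    · rw [← hS a a.2, e0, map_zero]; rfl
    · show Lm m ((a : AddMonoid.End A) one) ((b : AddMonoid.End A) w) = 0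
      rw [hS a a.2]; exact e
  let K := Kx m x
  have hKeval : ∀ k ∈ K, Lm m (k one) = k := fun k hk => h.Kx_eval hk
  letI : CommRing ↥K :=
    { (inferInstance : Ring ↥K) with
      mul_comm := fun a b => Subtype.ext (h.Kx_commute a.2 (h.Kx_commute b.2 (Commute.refl (Lm m x))).symm).eq }
  haveI : NoZeroDivisors ↥K := hdom K hKeval
  haveI : IsDomain ↥K := NoZeroDivisors.to_isDomain _
  letI : Fintype ↥K := Fintype.ofFinite _
  letI : Field ↥K := Fintype.fieldOfDomain ↥K
  have hself : ∀ a : ↥K, a + a = 0 := fun a => Subtype.ext (AddMonoidHom.ext fun w => h.two _)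
  haveI : CharP ↥K 2 := CharTwo.of_one_ne_zero_of_two_eq_zero one_ne_zero
    (by rw [← one_add_one_eq_two]; exact hself 1)
  obtain ⟨d, -, hd⟩ := FiniteField.card ↥K 2
  -- part two: centralizing elements lie in `K`
  have hC : ∀ y, m y x = m x y → Lm m y ∈ K := by
    intro y hy
    have hxy : Commute (Lm m x) (Lm m y) := h.comm_of_comm hy.symm
    have hcomm : ∀ a ∈ ({Lm m x, Lm m y} : Set (AddMonoid.End A)),
        ∀ b ∈ ({Lm m x, Lm m y} : Set (AddMonoid.End A)), a * b = b * a := by
      rintro a (rfl | rfl) b (rfl | rfl)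
      · rfl
      · exact hxy.eq
      · exact hxy.eq.symm
      · rfl
    let T := Subring.closure ({Lm m x, Lm m y} : Set (AddMonoid.End A))
    have hxT : K ≤ T := Kx_le_of_mem (Subring.subset_closure (Set.mem_insert _ _))
    have hxy' : ∀ k ∈ K, Commute k (Lm m y) := fun k hk => h.Kx_commute hk hxy
    have hsqK : ∀ k : ↥K, ∃ r : ↥K, r * r = k := by
      intro k
      obtain ⟨r, hr⟩ := (FiniteField.isSquare_of_char_two (ringChar.eq_iff.mpr ‹CharP ↥K 2›) k)
      exact ⟨r, hr.symm⟩
    have hTeval : ∀ k ∈ T, Lm m (k one) = k := by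
      intro k hk
      rw [Subring.mem_closure_iff] at hk
      induction hk using AddSubgroup.closure_induction with
      | zero => exact (Lm m).map_zero
      | add a b _ _ pa pb =>
        show Lm m (a one + b one) = _
        rw [map_add, pa, pb]
      | neg a _ pa =>
        show Lm m (-(a one)) = _
        rw [map_neg, pa]
      | mem a ha =>
        obtain ⟨i, j, rfl⟩ : ∃ i j : ℕ, a = Lm m x ^ i * Lm m y ^ j := by
          induction ha using Submonoid.closure_induction with
          | mem a ha =>
            rcases ha with rfl | rfl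
            · exact ⟨1, 0, by simp⟩
            · exact ⟨0, 1, by simp⟩
          | one => exact ⟨0, 0, by simp⟩
          | mul a b _ _ pa pb =>
            obtain ⟨i, j, rfl⟩ := pa
            obtain ⟨i', j', rfl⟩ := pb
            refine ⟨i + i', j + j', ?_⟩
            rw [pow_add, pow_add]
            have := ((hxy.symm.pow_left j).pow_right i').eq
            calc Lm m x ^ i * Lm m y ^ j * (Lm m x ^ i' * Lm m y ^ j')
                = Lm m x ^ i * (Lm m y ^ j * Lm m x ^ i') * Lm m y ^ j' := by
                  simp only [mul_assoc]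
              _ = Lm m x ^ i * (Lm m x ^ i' * Lm m y ^ j) * Lm m y ^ j' := by rw [this]
              _ = _ := by simp only [mul_assoc]
        obtain ⟨r, hr⟩ := hsqK ⟨Lm m x ^ i, K.pow_mem (mem_Kx x) i⟩
        have hr' : (r : AddMonoid.End A) * r = Lm m x ^ i := congrArg Subtype.val hr
        have e : Lm m x ^ i * Lm m y ^ j = (r : AddMonoid.End A) * Lm m y ^ j * r := by
          rw [← hr', mul_assoc, mul_assoc, ((hxy' r r.2).pow_right j).eq]
        have e2 : Lm m x ^ i * Lm m y ^ j =
            Lm m (m ((r : AddMonoid.End A) one) (m (pw m one y j) ((r : AddMonoid.End A) one))) := by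
          rw [← h.triple, hKeval r r.2, h.L_pw]; exact e
        rw [e2, h.L_eval]
    letI : CommRing ↥T :=
      { (inferInstance : Ring ↥T) with
        mul_comm := fun a b => Subtype.ext (congrArg Subtype.val
          ((Subring.closureCommRingOfComm hcomm).mul_comm a b)) }
    haveI : NoZeroDivisors ↥T := hdom T hTeval
    haveI : IsDomain ↥T := NoZeroDivisors.to_isDomain _
    letI : Fintype ↥T := Fintype.ofFinite _
    letI : Field ↥T := Fintype.fieldOfDomain ↥T
    obtain ⟨g, hg⟩ := IsCyclic.exists_generator (α := (↥T)ˣ)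
    let w : A := ((g : ↥T) : AddMonoid.End A) one
    have hw : Lm m w = ((g : ↥T) : AddMonoid.End A) := hTeval _ (g : ↥T).2
    have hle : T ≤ Kx m w := by
      intro t ht
      rcases eq_or_ne (⟨t, ht⟩ : ↥T) 0 with e | e
      · rw [show t = 0 from congrArg Subtype.val e]; exact (Kx m w).zero_mem
      obtain ⟨n, hn⟩ := (mem_powers_iff_mem_zpowers (x := g) (y := Units.mk0 _ e)).mpr (hg _)
      have := congrArg (fun u : (↥T)ˣ => ((u : ↥T) : AddMonoid.End A)) hn
      simp only [Units.val_pow_eq_pow_val, SubmonoidClass.coe_pow, Units.val_mk0] at this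
      rw [← this, ← hw]
      exact (Kx m w).pow_mem (mem_Kx w) n
    have hK_eq : K = T := by
      apply le_antisymm hxT
      intro t ht
      have hsub : (K : Set (AddMonoid.End A)) = (T : Set (AddMonoid.End A)) := by
        refine Set.eq_of_subset_of_ncard_le hxT ?_ (Set.toFinite _)
        refine le_trans (Set.ncard_le_ncard hle (Set.toFinite _)) ?_
        rw [← Nat.card_coe_set_eq, ← Nat.card_coe_set_eq]
        exact hmax w
      exact (Set.ext_iff.mp hsub t).mpr ht
    rw [hK_eq]
    exact Subring.subset_closure (Set.mem_insert_of_mem _ rfl)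
  refine ⟨?_, hC⟩
  by_contra hne
  -- the right multiplication by `x` as a `K`-linear map
  let ι : ↥K →+* AddMonoid.End A := K.subtype
  have hιr : ∀ a : ↥K, Commute (ι a) (Rm m x) := fun a => h.Kx_commute a.2 (h.flex x)
  let Φ := Polynomial.eval₂RingHom' ι (Rm m x) hιr
  let xK : ↥K := ⟨Lm m x, mem_Kx x⟩
  have hq : Rm m x ^ Fintype.card ↥K = Rm m x := by
    rw [← h.R_pw]
    congr 1
    show (Lm m x ^ Fintype.card ↥K) one = x
    have := congrArg (fun u : ↥K => (u : AddMonoid.End A)) (FiniteField.pow_card xK)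
    simp only [SubmonoidClass.coe_pow] at this
    rw [this]
    exact h.L_eval x
  have hprod : Φ (∏ k : ↥K, (Polynomial.X - Polynomial.C k)) = 0 := by
    have e : (∏ k : ↥K, (Polynomial.X - Polynomial.C k)) =
        Polynomial.X ^ Fintype.card ↥K - Polynomial.X := by
      have hm : (Polynomial.X ^ Fintype.card ↥K - Polynomial.X : Polynomial ↥K).Monic :=
        Polynomial.monic_X_pow_sub (by rw [Polynomial.degree_X]; exact_mod_cast Fintype.one_lt_card)
      have := Polynomial.prod_multiset_X_sub_C_of_monic_of_roots_card_eq hm (by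
        rw [FiniteField.roots_X_pow_card_sub_X, FiniteField.X_pow_card_sub_X_natDegree_eq ↥K Fintype.one_lt_card]
        rfl)
      rw [FiniteField.roots_X_pow_card_sub_X] at this
      exact this
    rw [e, map_sub, map_pow]
    show Polynomial.eval₂ ι _ Polynomial.X ^ _ - Polynomial.eval₂ ι _ Polynomial.X = 0
    rw [Polynomial.eval₂_X, hq, sub_self]
  -- an eigenvector with eigenvalue different from `x`
  obtain ⟨y, hy0, k₀, hk₀, hyk⟩ : ∃ y : A, y ≠ 0 ∧ ∃ k : ↥K, k ≠ xK ∧ Rm m x y = ι k y := by
    by_contra hcon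
    push Not at hcon
    have hinj : ∀ s : Finset ↥K, xK ∉ s →
        ∀ w, Φ (∏ k ∈ s, (Polynomial.X - Polynomial.C k)) w = 0 → w = 0 := by
      intro s
      induction s using Finset.induction with
      | empty => intro _ w hw; rwa [Finset.prod_empty, map_one] at hw
      | insert a s ha ih =>
        intro hxs w hw
        rw [Finset.prod_insert ha, map_mul] at hw
        rw [Finset.mem_insert, not_or] at hxs
        apply ih hxs.2 w
        by_contra hu
        apply hcon _ hu a (Ne.symm hxs.1)
        have hw' : Φ (Polynomial.X - Polynomial.C a)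
            (Φ (∏ k ∈ s, (Polynomial.X - Polynomial.C k)) w) = 0 := hw
        rw [map_sub] at hw'
        have : Polynomial.eval₂ ι (Rm m x) Polynomial.X (Φ (∏ k ∈ s, (Polynomial.X - Polynomial.C k)) w)
            - Polynomial.eval₂ ι (Rm m x) (Polynomial.C a) (Φ (∏ k ∈ s, (Polynomial.X - Polynomial.C k)) w) = 0 := hw'
        rw [Polynomial.eval₂_X, Polynomial.eval₂_C, sub_eq_zero] at this
        exact this
    apply hne
    refine AddMonoidHom.ext fun w => ?_
    have h0 := DFunLike.congr_fun hprod w
    rw [← Finset.mul_prod_erase _ _ (Finset.mem_univ xK), mul_comm, map_mul] at h0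
    have h1 := hinj _ (Finset.notMem_erase _ _) _ h0
    have : Polynomial.eval₂ ι (Rm m x) (Polynomial.X - Polynomial.C xK) w = 0 := h1
    rw [Polynomial.eval₂_sub, Polynomial.eval₂_X, Polynomial.eval₂_C] at this
    exact (sub_eq_zero.mp this).symm
  -- the induced field endomorphism
  have hex : ∀ a ∈ K, ∃ b : ↥K, Rm m (a one) y = ι b y := by
    intro a ha
    refine Kx_induction (P := fun a => ∃ b : ↥K, Rm m (a one) y = ι b y) ?_ ?_ ?_ ?_ ha
    · exact ⟨0, by show Rm m 0 y = _; rw [map_zero, map_zero]⟩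
    · rintro a b ⟨a', ha'⟩ ⟨b', hb'⟩
      refine ⟨a' + b', ?_⟩
      show Rm m (a one + b one) y = _
      rw [map_add, map_add]
      show Rm m (a one) y + Rm m (b one) y = _
      rw [ha', hb']; rfl
    · rintro a ⟨a', ha'⟩
      refine ⟨-a', ?_⟩
      show Rm m (-(a one)) y = _
      rw [map_neg, map_neg]
      show -(Rm m (a one) y) = _
      rw [ha']; rfl
    · intro n
      refine ⟨k₀ ^ n, ?_⟩
      show Rm m (pw m one x n) y = _
      rw [h.R_pw]
      have := eval_eigen ι (Rm m x) hιr hyk (Polynomial.X ^ n)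
      rw [map_pow, Polynomial.eval_pow, Polynomial.eval_X] at this
      rw [show (Polynomial.eval₂RingHom' ι (Rm m x) hιr) Polynomial.X = Rm m x from
        Polynomial.eval₂_X _ _] at this
      exact this
  have huniq : ∀ a b : ↥K, ι a y = ι b y → a = b := by
    intro a b hab
    by_contra hc
    apply hy0
    have hne' : ((a - b : ↥K) : AddMonoid.End A) one ≠ 0 := by
      intro e
      apply sub_ne_zero.mpr hc
      apply Subtype.ext
      rw [← hKeval _ (a - b).2, e, map_zero]
      rfl
    refine h.no_zero hne' ?_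
    show Lm m _ y = 0
    rw [hKeval _ (a - b).2]
    show ι a y - ι b y = 0
    rw [hab, sub_self]
  let φf : ↥K → ↥K := fun a => (hex a.1 a.2).choose
  have hφ : ∀ a : ↥K, Rm m ((a : AddMonoid.End A) one) y = ι (φf a) y := fun a => (hex a.1 a.2).choose_spec
  let φ : ↥K →+* ↥K :=
    { toFun := φf
      map_one' := huniq _ _ (by
        rw [← hφ 1, map_one]
        show Rm m one y = y
        rw [h.R_one]; rfl)
      map_mul' := fun a b => huniq _ _ (by
        rw [← hφ (a * b), map_mul]
        show Rm m (((a : AddMonoid.End A) * b) one) y = ι (φf a) (ι (φf b) y)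
        rw [h.R_mul a.2 b.2]
        show Rm m ((b : AddMonoid.End A) one) (Rm m ((a : AddMonoid.End A) one) y) = _
        rw [hφ a]
        show (Rm m ((b : AddMonoid.End A) one) * ι (φf a)) y = _
        rw [(h.R_commute b.2 ((hιr _).symm)).eq]
        show ι (φf a) (Rm m ((b : AddMonoid.End A) one) y) = _
        rw [hφ b])
      map_zero' := huniq _ _ (by
        rw [← hφ 0, map_zero]
        show Rm m 0 y = _
        rw [map_zero])
      map_add' := fun a b => huniq _ _ (by
        rw [← hφ (a + b), map_add]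
        show Rm m ((a : AddMonoid.End A) one + (b : AddMonoid.End A) one) y = ι (φf a) y + ι (φf b) y
        rw [map_add, ← hφ a, ← hφ b]
        rfl) }
  obtain ⟨i₁, hi₁⟩ : ∃ i : ℕ, ∀ a : ↥K, φ a = a ^ 2 ^ i := by
    letI : Algebra (ZMod 2) ↥K := ZMod.algebra _ 2
    let ψ : ↥K →ₐ[ZMod 2] ↥K :=
      { φ with
        commutes' := fun r => DFunLike.congr_fun
          (Subsingleton.elim (φ.comp (algebraMap (ZMod 2) (↥K))) (algebraMap (ZMod 2) (↥K))) r }
    obtain ⟨n, hn⟩ := (FiniteField.bijective_frobeniusAlgHom_pow (ZMod 2) ↥K).2 ψ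
    refine ⟨n.1, fun a => ?_⟩
    have := DFunLike.congr_fun hn a
    rw [show ψ a = φ a from rfl] at this
    rw [← this, AlgHom.coe_pow]
    generalize n.1 = t
    induction t with
    | zero => rw [Function.iterate_zero_apply, pow_zero, pow_one]
    | succ t ih =>
      rw [Function.iterate_succ_apply', ih, FiniteField.coe_frobeniusAlgHom, ZMod.card]
      show (a ^ 2 ^ t) ^ 2 = _
      rw [← pow_mul, ← pow_succ]
  -- eigen exponents
  have hxgen : ∀ n : ℕ, xK ^ 2 ^ n = xK → ∀ a : ↥K, a ^ 2 ^ n = a := by
    intro n hn a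
    have : (a : AddMonoid.End A) ^ 2 ^ n = a := by
      let S : Subring ↥K :=
        { carrier := {b | b ^ 2 ^ n = b}
          mul_mem' := fun {u v} hu hv => by
            show (u * v) ^ 2 ^ n = u * v
            rw [mul_pow, show u ^ 2 ^ n = u from hu, show v ^ 2 ^ n = v from hv]
          one_mem' := one_pow _
          add_mem' := fun {u v} hu hv => by
            show (u + v) ^ 2 ^ n = u + v
            rw [add_pow_char_pow, show u ^ 2 ^ n = u from hu, show v ^ 2 ^ n = v from hv]
          zero_mem' := zero_pow (pow_ne_zero _ two_ne_zero)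
          neg_mem' := fun {u} hu => by
            show (-u) ^ 2 ^ n = -u
            rw [show -u = u from CharTwo.neg_eq u]; exact hu }
      have hle : K ≤ S.map K.subtype := Kx_le_of_mem ⟨xK, hn, rfl⟩
      obtain ⟨b, hb, hba⟩ := hle a.2
      have : b = a := Subtype.ext hba
      subst this
      exact congrArg Subtype.val hb
    exact Subtype.ext this
  have hdn : ∀ n : ℕ, xK ^ 2 ^ n = xK → 0 < n → (d : ℕ) ≤ n := by
    intro n hn hn0
    by_contra hlt
    push Not at hlt
    have hsub : (Finset.univ : Finset ↥K) ⊆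
        (Polynomial.X ^ 2 ^ n - Polynomial.X : Polynomial ↥K).roots.toFinset := by
      intro a _
      rw [Multiset.mem_toFinset, Polynomial.mem_roots',
        Polynomial.IsRoot.def, Polynomial.eval_sub, Polynomial.eval_pow, Polynomial.eval_X]
      exact ⟨FiniteField.X_pow_card_sub_X_ne_zero ↥K (Nat.one_lt_two_pow hn0.ne'),
        by rw [hxgen n hn a, sub_self]⟩
    have hc := Finset.card_le_card hsub
    rw [Finset.card_univ, hd] at hc
    have h2 := (Multiset.toFinset_card_le _).trans
      (Polynomial.card_roots' (Polynomial.X ^ 2 ^ n - Polynomial.X : Polynomial ↥K))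
    rw [FiniteField.X_pow_card_sub_X_natDegree_eq ↥K (Nat.one_lt_two_pow hn0.ne')] at h2
    have := Nat.pow_lt_pow_right (show 1 < 2 by norm_num) hlt
    omega
  have hperiod : ∀ (a : ↥K) (n : ℕ), a ^ 2 ^ (n + (d : ℕ)) = a ^ 2 ^ n := by
    intro a n
    rw [pow_add, mul_comm, pow_mul, ← hd, FiniteField.pow_card]
  -- the set of exponents
  let P : ℕ → Prop := fun i => ∃ v : A, v ≠ 0 ∧ ∀ a : ↥K, Rm m ((a : AddMonoid.End A) one) v = ι (a ^ 2 ^ i) v
  have hP₁ : P i₁ := ⟨y, hy0, fun a => by rw [hφ a, ← hi₁]; rfl⟩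
  have hshift : ∀ i : ℕ, ∀ v : A, (∀ a : ↥K, Rm m ((a : AddMonoid.End A) one) v = ι (a ^ 2 ^ i) v) →
      ∀ (j : ℕ) (a : ↥K), Rm m ((a : AddMonoid.End A) one) (pw m one v j) = ι (a ^ 2 ^ (i * j)) (pw m one v j) ∧
        Lm m v (ι a (pw m one v j)) = ι (a ^ 2 ^ i) (pw m one v (j + 1)) := by
    intro i v hv
    have step : ∀ (a : ↥K) (j : ℕ), Lm m v (ι a (pw m one v j)) = ι (a ^ 2 ^ i) (pw m one v (j + 1)) := by
      intro a j
      have e1 : ι a (pw m one v j) = Rm m (pw m one v j) ((a : AddMonoid.End A) one) := by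
        show (a : AddMonoid.End A) (pw m one v j) = m ((a : AddMonoid.End A) one) (pw m one v j)
        conv_lhs => rw [← hKeval a a.2]
        rfl
      have hc1 : Commute (Lm m v) (Rm m (pw m one v j)) := by
        rw [h.R_pw]; exact (h.flex v).pow_right j
      rw [e1]
      show (Lm m v * Rm m (pw m one v j)) _ = _
      rw [hc1.eq]
      show Rm m (pw m one v j) (Lm m v ((a : AddMonoid.End A) one)) = _
      rw [show Lm m v ((a : AddMonoid.End A) one) = Rm m ((a : AddMonoid.End A) one) v from rfl, hv a]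
      show (Rm m (pw m one v j) * ι (a ^ 2 ^ i)) v = _
      have e2 : ι (a ^ 2 ^ i) v = Rm m v (((a ^ 2 ^ i : ↥K) : AddMonoid.End A) one) := by
        show ((a ^ 2 ^ i : ↥K) : AddMonoid.End A) v = m (((a ^ 2 ^ i : ↥K) : AddMonoid.End A) one) v
        conv_lhs => rw [← hKeval _ (a ^ 2 ^ i : ↥K).2]
        rfl
      show Rm m (pw m one v j) (ι (a ^ 2 ^ i) v) = _
      rw [e2]
      show (Rm m (pw m one v j) * Rm m v) _ = _
      rw [h.R_pw, ← pow_succ, ← h.R_pw]
      show m (((a ^ 2 ^ i : ↥K) : AddMonoid.End A) one) (pw m one v (j + 1)) = _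
      show Lm m (((a ^ 2 ^ i : ↥K) : AddMonoid.End A) one) (pw m one v (j + 1)) = _
      rw [hKeval _ (a ^ 2 ^ i : ↥K).2]
      rfl
    intro j
    induction j with
    | zero =>
      intro a
      refine ⟨?_, step a 0⟩
      rw [Nat.mul_zero, pow_zero, pow_one]
      show m one ((a : AddMonoid.End A) one) = (a : AddMonoid.End A) one
      exact h.one_mul' _
    | succ j ih =>
      intro a
      refine ⟨?_, step a (j + 1)⟩
      have e : pw m one v (j + 1) = Lm m v (pw m one v j) := by
        show (Lm m v ^ (j + 1)) one = _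
        rw [pow_succ']; rfl
      show m (pw m one v (j + 1)) ((a : AddMonoid.End A) one) = _
      show Lm m (pw m one v (j + 1)) ((a : AddMonoid.End A) one) = _
      rw [h.L_pw, pow_succ']
      show Lm m v ((Lm m v ^ j) ((a : AddMonoid.End A) one)) = _
      rw [← h.L_pw]
      show Lm m v (Rm m ((a : AddMonoid.End A) one) (pw m one v j)) = _
      rw [(ih a).1, step]
      rw [← pow_mul, ← pow_add, Nat.mul_succ]
  have hpw_ne : ∀ v : A, v ≠ 0 → ∀ j, pw m one v j ≠ 0 := by
    intro v hv j
    induction j with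
    | zero => exact h.nontriv
    | succ j ih =>
      intro e
      apply ih
      refine h.no_zero hv ?_
      rw [← e]
      show _ = (Lm m v ^ (j + 1)) one
      rw [pow_succ']; rfl
  have hpos : ∃ i, 0 < i ∧ i < (d : ℕ) ∧ P i := by
    have hne0 : xK ^ 2 ^ i₁ ≠ xK := by
      intro e
      apply hk₀
      apply huniq
      rw [← e, ← hi₁ xK]
      show _ = ι (φf xK) y
      rw [← hφ xK, ← hyk]
      show Rm m x y = Rm m (Lm m x one) y
      rw [h.L_eval]
    refine ⟨i₁ % d, ?_, Nat.mod_lt _ d.pos, ?_⟩
    · rcases Nat.eq_zero_or_pos (i₁ % (d : ℕ)) with e | e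
      · exfalso; apply hne0
        have : ∀ t : ℕ, xK ^ 2 ^ ((d : ℕ) * t) = xK := by
          intro t
          induction t with
          | zero => rw [Nat.mul_zero, pow_zero, pow_one]
          | succ t ih => rw [Nat.mul_succ, hperiod, ih]
        have hh := this (i₁ / d)
        rwa [Nat.mul_div_cancel' (Nat.dvd_of_mod_eq_zero e)] at hh
      · exact e
    · obtain ⟨v, hv0, hv⟩ := hP₁
      refine ⟨v, hv0, fun a => ?_⟩
      rw [hv a]
      congr 2
      have : ∀ t r : ℕ, a ^ 2 ^ (r + (d : ℕ) * t) = a ^ 2 ^ r := by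
        intro t
        induction t with
        | zero => intro r; rw [Nat.mul_zero, Nat.add_zero]
        | succ t ih => intro r; rw [Nat.mul_succ, ← Nat.add_assoc, hperiod, ih]
      conv_lhs => rw [← Nat.mod_add_div i₁ (d : ℕ)]
      exact this _ _
  obtain ⟨i, ⟨hi0, hid, v, hv0, hv⟩, himin⟩ : ∃ i, (0 < i ∧ i < (d : ℕ) ∧ P i) ∧
      ∀ j, 0 < j → j < i → ¬ P j :=
    ⟨Nat.find hpos, Nat.find_spec hpos, fun j hj hji hPj => Nat.find_min hpos hji
      ⟨hj, lt_trans hji (Nat.find_spec hpos).2.1, hPj⟩⟩
  have hdvd : i ∣ (d : ℕ) := by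
    by_contra hnd
    have hr : 0 < (d : ℕ) % i := Nat.pos_of_ne_zero fun e => hnd (Nat.dvd_of_mod_eq_zero e)
    have hlt : (d : ℕ) % i < i := Nat.mod_lt _ hi0
    have hsum := Nat.div_add_mod (d : ℕ) i
    refine himin (i - (d : ℕ) % i) (by omega) (by omega) ⟨pw m one v ((d : ℕ) / i + 1), hpw_ne v hv0 _, ?_⟩
    intro a
    rw [(hshift i v hv _ a).1]
    congr 2
    rw [← hperiod a (i - (d : ℕ) % i)]
    congr 2
    rw [Nat.mul_add, Nat.mul_one]
    omega
  obtain ⟨k, hk⟩ := hdvd
  have hk2 : 2 ≤ k := by
    rcases k with _ | _ | k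
    · rw [Nat.mul_zero] at hk; exact absurd hk d.pos.ne'
    · rw [Nat.mul_one] at hk; omega
    · omega
  -- `v ^ k` is fixed
  obtain ⟨c, hc, hc0, hcfix⟩ : ∃ c : ↥K, pw m one v k = (c : AddMonoid.End A) one ∧ c ≠ 0 ∧ c ^ 2 ^ i = c := by
    have hcomm : m (pw m one v k) x = m x (pw m one v k) := by
      have := (hshift i v hv k xK).1
      rw [← hk, show (d : ℕ) = 0 + (d : ℕ) by omega, hperiod, pow_zero, pow_one] at this
      show Rm m x (pw m one v k) = Lm m x (pw m one v k)
      have e : Rm m ((xK : AddMonoid.End A) one) = Rm m x := congrArg (Rm m) (h.L_eval x)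
      rw [e] at this
      exact this
    refine ⟨⟨Lm m (pw m one v k), hC _ hcomm⟩, (h.L_eval _).symm, ?_, ?_⟩
    · intro e
      apply hpw_ne v hv0 k
      have := DFunLike.congr_fun (congrArg Subtype.val e) one
      rwa [h.L_eval] at this
    · have h1 : Rm m (pw m one v k) v = ι ((⟨Lm m (pw m one v k), hC _ hcomm⟩ : ↥K) ^ 2 ^ i) v := by
        have := hv ⟨Lm m (pw m one v k), hC _ hcomm⟩
        rw [show ((⟨Lm m (pw m one v k), hC _ hcomm⟩ : ↥K) : AddMonoid.End A) one = pw m one v k from
          h.L_eval _] at this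
        exact this
      by_contra hne2
      apply hv0
      by_contra hv1
      apply hne2
      have h2 : Rm m (pw m one v k) v = ι (⟨Lm m (pw m one v k), hC _ hcomm⟩ : ↥K) v := by
        show m v (pw m one v k) = Lm m (pw m one v k) v
        show Lm m v (pw m one v k) = m (pw m one v k) v
        rw [← h.pw_succ']
        show _ = (Lm m v ^ (k + 1)) one
        rw [pow_succ']; rfl
      rw [h1] at h2
      by_contra hne3
      have hnz : (((⟨Lm m (pw m one v k), hC _ hcomm⟩ : ↥K) ^ 2 ^ i - ⟨Lm m (pw m one v k), hC _ hcomm⟩ : ↥K) :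
          AddMonoid.End A) one ≠ 0 := by
        intro e
        apply sub_ne_zero.mpr hne3
        apply Subtype.ext
        rw [← hKeval _ (_ : ↥K).2, e, map_zero]
        rfl
      refine hv1 (h.no_zero hnz ?_)
      show Lm m _ v = 0
      rw [hKeval _ (_ : ↥K).2]
      exact sub_eq_zero.mpr h2
  -- the good multipliers
  let N : ℕ → ↥K → ↥K := fun j e => ∏ t ∈ Finset.range j, e ^ 2 ^ (i * t)
  let G : AddSubgroup ↥K :=
    { carrier := {e | ∀ (a : ↥K) (j : ℕ), Lm m (ι e v) (ι a (pw m one v j)) = ι e (Lm m v (ι a (pw m one v j)))}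
      zero_mem' := fun a j => by
        rw [map_zero]
        show Lm m 0 _ = 0
        rw [map_zero]; rfl
      add_mem' := fun {e e'} he he' a j => by
        rw [map_add]
        show Lm m (ι e v + ι e' v) _ = ι e _ + ι e' _
        rw [map_add, ← he a j, ← he' a j]; rfl
      neg_mem' := fun {e} he a j => by
        rw [map_neg]
        show Lm m (-(ι e v)) _ = -(ι e _)
        rw [map_neg, ← he a j]; rfl }
  have hG1 : (1 : ↥K) ∈ G := fun a j => by rw [map_one]; rfl
  have hGmul : ∀ f e : ↥K, e ∈ G → f * f ^ 2 ^ i * e ∈ G := by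
    intro f e he a j
    have hf := hKeval (f : AddMonoid.End A) f.2
    have e0 : ι (f * f ^ 2 ^ i * e) v =
        m ((f : AddMonoid.End A) one) (m (ι e v) ((f : AddMonoid.End A) one)) := by
      show _ = Lm m ((f : AddMonoid.End A) one) (Rm m ((f : AddMonoid.End A) one) (ι e v))
      rw [hf]
      show _ = (f : AddMonoid.End A) ((Rm m ((f : AddMonoid.End A) one) * ι e) v)
      rw [(h.R_commute f.2 (hιr e).symm).eq]
      show _ = ι f (ι e (Rm m ((f : AddMonoid.End A) one) v))
      rw [hv f, mul_assoc, mul_comm (f ^ 2 ^ i), map_mul, map_mul]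
      rfl
    rw [e0, ← h.triple, hf]
    show ι f (Lm m (ι e v) (ι f (ι a (pw m one v j)))) = _
    rw [show ι f (ι a (pw m one v j)) = ι (f * a) (pw m one v j) by rw [map_mul]; rfl, he,
      (hshift i v hv j (f * a)).2, (hshift i v hv j a).2, mul_pow, map_mul, map_mul, map_mul]
    show (ι f * (ι e * (ι (f ^ 2 ^ i) * ι (a ^ 2 ^ i)))) _ = (ι f * ι (f ^ 2 ^ i) * ι e * ι (a ^ 2 ^ i)) _
    rw [← map_mul, ← map_mul, ← map_mul, ← map_mul, ← map_mul, ← map_mul]
    congr 2
    ring
  let Sc : Subring ↥K :=
    { carrier := {u | ∀ e ∈ G, u * e ∈ G}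
      mul_mem' := fun {a b} ha hb e he => by rw [mul_assoc]; exact ha _ (hb e he)
      one_mem' := fun e he => by rwa [one_mul]
      add_mem' := fun {a b} ha hb e he => by rw [add_mul]; exact G.add_mem (ha e he) (hb e he)
      zero_mem' := fun e _ => by rw [zero_mul]; exact G.zero_mem
      neg_mem' := fun {a} ha e he => by rw [neg_mul]; exact G.neg_mem (ha e he) }
  have hScG : ∀ u ∈ Sc, u ∈ G := fun u hu => by simpa using hu 1 hG1
  have hN1 : ∀ f : ↥K, f * f ^ 2 ^ i ∈ Sc := hGmul
  obtain ⟨e, heG, he⟩ : ∃ e : ↥K, e ∈ G ∧ N k e = c⁻¹ := by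
    rcases (show k = 2 ∨ 3 ≤ k by omega) with rfl | hk3
    · have hk' : (d : ℕ) = i * 2 := hk
      let r : ↥K := c ^ 2 ^ (i - 1)
      have hr2 : r * r = c := by
        show c ^ 2 ^ (i - 1) * c ^ 2 ^ (i - 1) = c
        rw [← pow_add, ← two_mul, ← pow_succ', show i - 1 + 1 = i by omega, hcfix]
      have hrfix : ∀ u : ↥K, u ^ 2 ^ i = u → u ∈ G := by
        intro u hu
        let s : ↥K := u ^ 2 ^ ((d : ℕ) - 1)
        have hs : s * s = u := by
          show u ^ 2 ^ ((d : ℕ) - 1) * u ^ 2 ^ ((d : ℕ) - 1) = u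
          rw [← pow_add, ← two_mul, ← pow_succ', show (d : ℕ) - 1 + 1 = d by have := d.pos; omega,
            ← hd, FiniteField.pow_card]
        have hsf : s ^ 2 ^ i = s := by
          show (u ^ 2 ^ ((d : ℕ) - 1)) ^ 2 ^ i = u ^ 2 ^ ((d : ℕ) - 1)
          rw [← pow_mul, mul_comm, pow_mul, hu]
        have := hScG _ (hN1 s)
        rwa [hsf, hs] at this
      refine ⟨r⁻¹, hrfix _ ?_, ?_⟩
      · rw [inv_pow, show r ^ 2 ^ i = r by
          show (c ^ 2 ^ (i - 1)) ^ 2 ^ i = c ^ 2 ^ (i - 1)
          rw [← pow_mul, mul_comm, pow_mul, hcfix]]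
      · show ∏ t ∈ Finset.range 2, r⁻¹ ^ 2 ^ (i * t) = c⁻¹
        rw [Finset.prod_range_succ, Finset.prod_range_one, Nat.mul_zero, pow_zero, pow_one, Nat.mul_one,
          inv_pow, show r ^ 2 ^ i = r by
            show (c ^ 2 ^ (i - 1)) ^ 2 ^ i = c ^ 2 ^ (i - 1)
            rw [← pow_mul, mul_comm, pow_mul, hcfix],
          ← mul_inv, hr2]
    · -- the subring spanned by the values `f * f ^ q₀` is everything
      have htop : Sc = ⊤ := by
        by_contra hlt
        haveI : IsDomain ↥Sc := inferInstance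
        letI : Fintype ↥Sc := Fintype.ofFinite _
        letI : Field ↥Sc := Fintype.fieldOfDomain ↥Sc
        letI : Algebra ↥Sc ↥K := Sc.subtype.toAlgebra
        let n := Module.finrank ↥Sc ↥K
        have hcard : Fintype.card ↥K = Fintype.card ↥Sc ^ n := Module.card_eq_pow_finrank
        have ha2 : 2 ≤ Fintype.card ↥Sc := Fintype.one_lt_card
        have hn2 : 2 ≤ n := by
          by_contra hn
          apply hlt
          have : Fintype.card ↥K ≤ Fintype.card ↥Sc := by
            rw [hcard]
            calc Fintype.card ↥Sc ^ n ≤ Fintype.card ↥Sc ^ 1 := Nat.pow_le_pow_right (by omega) (by omega)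
              _ = _ := pow_one _
          rw [eq_top_iff]
          intro u _
          have hb := (Fintype.bijective_iff_injective_and_card (Sc.subtype)).mpr
            ⟨Subtype.val_injective, le_antisymm (Fintype.card_le_of_injective _ Subtype.val_injective) this⟩
          obtain ⟨u', rfl⟩ := hb.2 u
          exact u'.2
        -- the units map to the units of `Sc`
        have hb : Fintype.card ↥K - 1 ≤ (2 ^ i + 1) * (Fintype.card ↥Sc - 1) := by
          let sK : Finset ↥K := Finset.univ.erase 0
          let sS : Finset ↥K := (Finset.univ.filter (fun u : ↥K => u ∈ Sc)).erase 0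
          have hmaps : Set.MapsTo (fun f : ↥K => f * f ^ 2 ^ i) sK sS := by
            intro f hf
            simp only [sK, Finset.coe_erase, Set.mem_diff, Finset.coe_univ, Set.mem_univ, true_and,
              Set.mem_singleton_iff] at hf
            simp only [sS, Finset.mem_coe, Finset.mem_erase, Finset.mem_filter, Finset.mem_univ, true_and]
            exact ⟨mul_ne_zero hf (pow_ne_zero _ hf), hN1 f⟩
          have h1 := Finset.card_le_mul_card_image_of_maps_to (fun a ha => hmaps ha) (n := 2 ^ i + 1) (by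
            intro b _
            let P : Polynomial ↥K := Polynomial.X ^ (2 ^ i + 1) - Polynomial.C b
            have hP : P ≠ 0 := Polynomial.X_pow_sub_C_ne_zero (Nat.succ_pos _) b
            refine (Finset.card_le_card (t := P.roots.toFinset) ?_).trans
              ((Multiset.toFinset_card_le _).trans ((Polynomial.card_roots' _).trans
                (le_of_eq Polynomial.natDegree_X_pow_sub_C)))
            intro f hf
            simp only [Finset.mem_filter] at hf
            simp only [P, Multiset.mem_toFinset, Polynomial.mem_roots hP, Polynomial.IsRoot.def,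
              Polynomial.eval_sub, Polynomial.eval_pow, Polynomial.eval_X, Polynomial.eval_C]
            rw [pow_succ', hf.2, sub_self])
          have hS : sS.card = Fintype.card ↥Sc - 1 := by
            rw [Finset.card_erase_of_mem (Finset.mem_filter.mpr ⟨Finset.mem_univ _, Sc.zero_mem⟩),
              ← Fintype.card_subtype]
          rw [Finset.card_erase_of_mem (Finset.mem_univ _), Finset.card_univ, hS] at h1
          exact h1
        have hq3 : (2 ^ i) ^ 3 ≤ Fintype.card ↥K := by
          rw [hd, hk, ← pow_mul]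
          exact Nat.pow_le_pow_right (by norm_num) (Nat.mul_le_mul_left i hk3)
        have ha : Fintype.card ↥Sc * Fintype.card ↥Sc ≤ Fintype.card ↥K := by
          rw [hcard, ← pow_two]
          exact Nat.pow_le_pow_right (by omega) hn2
        have hq1 : 2 ≤ 2 ^ i := Nat.one_lt_two_pow hi0.ne'
        generalize Fintype.card ↥Sc = s at *
        generalize Fintype.card ↥K = Q at *
        generalize 2 ^ i = q₀ at *
        have h3 : q₀ ^ 3 = q₀ * q₀ * q₀ := by ring
        rcases le_or_gt s q₀ with hsq | hsq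
        · have : (q₀ + 1) * (s - 1) ≤ (q₀ + 1) * (q₀ - 1) := Nat.mul_le_mul_left _ (by omega)
          have e1 : (q₀ + 1) * (q₀ - 1) + 1 = q₀ * q₀ := by
            obtain ⟨t, rfl⟩ : ∃ t, q₀ = t + 1 := ⟨q₀ - 1, by omega⟩
            simp only [Nat.add_sub_cancel]; ring
          have : q₀ * q₀ * 2 ≤ q₀ * q₀ * q₀ := Nat.mul_le_mul_left _ hq1
          have : 0 < q₀ * q₀ := by positivity
          omega
        · have : (q₀ + 1) * (s - 1) ≤ s * (s - 1) := Nat.mul_le_mul_right _ (by omega)
          have e1 : s * (s - 1) + s = s * s := by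
            obtain ⟨t, rfl⟩ : ∃ t, s = t + 1 := ⟨s - 1, by omega⟩
            simp only [Nat.add_sub_cancel]; ring
          omega
      obtain ⟨u, hu⟩ : ∃ u : (↥K)ˣ, u ^ (∑ t ∈ Finset.range k, (2 ^ i) ^ t) = (Units.mk0 c hc0)⁻¹ := by
        let M := ∑ t ∈ Finset.range k, (2 ^ i) ^ t
        have hq1 : 2 ≤ 2 ^ i := Nat.one_lt_two_pow hi0.ne'
        have hM : M * (2 ^ i - 1) = Fintype.card ↥K - 1 := by
          have := Nat.geomSum_eq hq1 k
          rw [hd, hk, pow_mul]
          show (∑ t ∈ Finset.range k, (2 ^ i) ^ t) * _ = _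
          rw [this, Nat.div_mul_cancel]
          simpa using Nat.sub_dvd_pow_sub_pow (2 ^ i) 1 k
        have hcu : ((Units.mk0 c hc0)⁻¹) ^ (2 ^ i - 1) = 1 := by
          rw [inv_pow, inv_eq_one]
          apply Units.ext
          rw [Units.val_pow_eq_pow_val, Units.val_mk0, Units.val_one]
          apply mul_right_cancel₀ hc0
          rw [← pow_succ, show 2 ^ i - 1 + 1 = 2 ^ i by omega, hcfix, one_mul]
        obtain ⟨g, hg⟩ := IsCyclic.exists_generator (α := (↥K)ˣ)
        obtain ⟨z, hz⟩ := hg (Units.mk0 c hc0)⁻¹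
        simp only at hz
        rw [← hz, ← zpow_natCast, ← zpow_mul, ← orderOf_dvd_iff_zpow_eq_one,
          orderOf_eq_card_of_forall_mem_zpowers hg, Nat.card_eq_fintype_card, Fintype.card_units,
          ← hM, Nat.cast_mul] at hcu
        have h2 : (M : ℤ) ∣ z := by
          refine Int.dvd_of_mul_dvd_mul_right ?_ hcu
          exact_mod_cast Nat.sub_ne_zero_of_lt hq1
        obtain ⟨z', rfl⟩ := h2
        exact ⟨g ^ z', by rw [← zpow_natCast, ← zpow_mul, mul_comm, hz]⟩
      refine ⟨(u : ↥K), hScG _ (by rw [htop]; exact Subring.mem_top _), ?_⟩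
      have := congrArg Units.val hu
      rw [Units.val_pow_eq_pow_val, Units.val_inv_eq_inv_val, Units.val_mk0] at this
      rw [← this, ← Finset.prod_pow_eq_pow_sum]
      exact Finset.prod_congr rfl fun t _ => by rw [← pow_mul]
  -- the twisted element of order `k`
  let z : A := ι e v
  have hzpow : ∀ j : ℕ, pw m one z j = ι (N j e) (pw m one v j) := by
    intro j
    induction j with
    | zero => show one = ι 1 one; rw [map_one]; rfl
    | succ j ih =>
      have e1 : pw m one z (j + 1) = Lm m z (pw m one z j) := by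
        show (Lm m z ^ (j + 1)) one = _
        rw [pow_succ']; rfl
      rw [e1, ih, heG (N j e) j, (hshift i v hv j _).2]
      show (ι e * ι ((N j e) ^ 2 ^ i)) _ = _
      rw [← map_mul]
      congr 2
      show e * (∏ t ∈ Finset.range j, e ^ 2 ^ (i * t)) ^ 2 ^ i = ∏ t ∈ Finset.range (j + 1), e ^ 2 ^ (i * t)
      rw [Finset.prod_range_succ']
      rw [← Finset.prod_pow, Nat.mul_zero, pow_zero, pow_one, mul_comm]
      congr 1
      exact Finset.prod_congr rfl fun t _ => by rw [← pow_mul, ← pow_add, Nat.mul_succ]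
  have hzk : pw m one z k = one := by
    rw [hzpow k, he, hc]
    show (ι c⁻¹ * ι c) one = one
    rw [← map_mul, inv_mul_cancel₀ hc0, map_one]; rfl
  have heig : ∀ t : ℕ, Rm m x (pw m one z t) = ι (xK ^ 2 ^ (i * t)) (pw m one z t) := by
    intro t
    rw [hzpow t]
    show (Rm m x * ι (N t e)) _ = _
    rw [← (hιr (N t e)).eq]
    show ι (N t e) (Rm m x (pw m one v t)) = _
    have := (hshift i v hv t xK).1
    rw [show Rm m ((xK : AddMonoid.End A) one) = Rm m x from congrArg (Rm m) (h.L_eval x)] at this
    rw [this]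
    show (ι (N t e) * ι (xK ^ 2 ^ (i * t))) _ = (ι (xK ^ 2 ^ (i * t)) * ι (N t e)) _
    rw [← map_mul, ← map_mul, mul_comm]
  have hdist : ∀ t, 0 < t → t < k → xK ^ 2 ^ (i * t) ≠ xK := by
    intro t ht htk e'
    have := hdn (i * t) e' (Nat.mul_pos hi0 ht)
    rw [hk] at this
    exact absurd (Nat.le_of_mul_le_mul_left this hi0) (not_le.mpr htk)
  let s : A := ∑ t ∈ Finset.range k, pw m one z t
  have hzs : Lm m z s = s := by
    show Lm m z (∑ t ∈ Finset.range k, pw m one z t) = _
    rw [map_sum]
    have e1 : ∀ t, Lm m z (pw m one z t) = pw m one z (t + 1) := by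
      intro t
      show _ = (Lm m z ^ (t + 1)) one
      rw [pow_succ']; rfl
    simp only [e1]
    have h1 := Finset.sum_range_succ' (fun t => pw m one z t) k
    have h2 := Finset.sum_range_succ (fun t => pw m one z t) k
    rw [h2, hzk] at h1
    exact (add_right_cancel h1).symm
  have hz1 : z + one ≠ 0 := by
    intro e'
    have hz : z = one := by
      calc z = z + (one + one) := by rw [h.two, add_zero]
        _ = (z + one) + one := by rw [add_assoc]
        _ = one := by rw [e', zero_add]
    have h1 := heig 1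
    rw [show pw m one z 1 = z by show (Lm m z ^ 1) one = z; rw [pow_one]; exact h.L_eval z, hz,
      Nat.mul_one, h.R_eval] at h1
    have h2 : xK ^ 2 ^ i = xK := by
      apply Subtype.ext
      rw [← hKeval _ (xK ^ 2 ^ i : ↥K).2]
      show Lm m (ι (xK ^ 2 ^ i) one) = Lm m x
      rw [← h1]
    exact hdist 1 Nat.one_pos (by omega) (by rwa [Nat.mul_one])
  have hs0 : s = 0 := by
    refine h.no_zero hz1 ?_
    show Lm m (z + one) s = 0
    rw [map_add]
    show Lm m z s + Lm m one s = 0
    rw [hzs, h.L_one]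
    exact h.two s
  let O : Polynomial ↥K := ∏ t ∈ (Finset.range k).erase 0, (Polynomial.X - Polynomial.C (xK ^ 2 ^ (i * t)))
  have hO : ∀ t, Φ O (pw m one z t) = ι (O.eval (xK ^ 2 ^ (i * t))) (pw m one z t) :=
    fun t => eval_eigen ι (Rm m x) hιr (heig t) O
  have hsum0 : Φ O s = ι (O.eval (xK ^ 2 ^ (i * 0))) one := by
    show Φ O (∑ t ∈ Finset.range k, pw m one z t) = _
    rw [map_sum, Finset.sum_eq_single 0]
    · rw [hO 0]; rfl
    · intro t ht ht0
      rw [hO t, Polynomial.eval_prod, Finset.prod_eq_zero (Finset.mem_erase.mpr ⟨ht0, ht⟩)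
        (by simp), map_zero]
      rfl
    · intro h'; exact absurd (Finset.mem_range.mpr (by omega)) h'
  rw [hs0, map_zero] at hsum0
  have hne' : O.eval (xK ^ 2 ^ (i * 0)) ≠ 0 := by
    rw [Polynomial.eval_prod, Finset.prod_ne_zero_iff]
    intro t ht
    rw [Finset.mem_erase, Finset.mem_range] at ht
    rw [Polynomial.eval_sub, Polynomial.eval_X, Polynomial.eval_C, Nat.mul_zero, pow_zero, pow_one,
      sub_ne_zero]
    exact fun e' => hdist t (Nat.pos_of_ne_zero ht.1) ht.2 e'.symm
  apply hne'
  apply Subtype.ext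
  rw [← hKeval _ (O.eval (xK ^ 2 ^ (i * 0))).2]
  show Lm m (ι (O.eval (xK ^ 2 ^ (i * 0))) one) = _
  rw [← hsum0, map_zero]
  rfl

/-- Such a semifield is commutative and associative. -/
theorem Data.field_axioms (h : Data m one) :
    (∀ a b, m a b = m b a) ∧ ∀ a b c, m (m a b) c = m a (m b c) := by
  classical
  haveI : Finite (AddMonoid.End A) :=
    Finite.of_injective (fun f => (f : A → A)) DFunLike.coe_injective
  haveI : Nonempty A := ⟨one⟩
  obtain ⟨x, hx⟩ := Finite.exists_max (fun w : A => Nat.card (Kx m w))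
  obtain ⟨h1, h2⟩ := h.L_eq_R x hx
  have hall : ∀ y, Lm m y ∈ Kx m x := fun y => h2 y (DFunLike.congr_fun h1 y).symm
  have hcomm : ∀ a b, Commute (Lm m a) (Lm m b) := fun a b =>
    h.Kx_commute (hall a) ((h.Kx_commute (hall b) (Commute.refl (Lm m x))).symm)
  have hab : ∀ a b, m a b = m b a := by
    intro a b
    have := DFunLike.congr_fun (hcomm a b).eq one
    change Lm m a (Lm m b one) = Lm m b (Lm m a one) at this
    rwa [h.L_eval, h.L_eval] at this
  refine ⟨hab, fun a b c => ?_⟩
  have e : Lm m (m a b) = Lm m a * Lm m b := by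
    have := h.Kx_eval ((Kx m x).mul_mem (hall a) (hall b))
    change Lm m (Lm m a (Lm m b one)) = _ at this
    rwa [h.L_eval] at this
  exact DFunLike.congr_fun e c

end Cfsg.Agent.Classif.Semifield
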