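import Cfsg.Agent.S1757
import Cfsg.Agent.PGroup.Frattini
import Cfsg.Agent.Fusion.Basic

/-!
Conjugation invariant families of TI subgroups in 2-groups.
-/

open Subgroup

namespace Cfsg.Agent.Classif

open Cfsg.Agent.Fusion in
theorem ti_family_commute {S : Type*} [Group S] [Finite S] (hS : IsPGroup 2 S)
    (Δ : Set (Subgroup S)) (hinv : ∀ s : S, ∀ R ∈ Δ, cj s R ∈ Δ)
    (hsq : ∀ R ∈ Δ, ∃ r ∈ R, r ^ 2 ≠ 1) (hord : ∀ R ∈ Δ, ∀ T ∈ Δ, Nat.card ↥R = Nat.card ↥T)
    (hti : ∀ R ∈ Δ, ∀ T ∈ Δ, R = T ∨ R ⊓ T = ⊥) :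
    ∀ (n : ℕ), ∀ R ∈ Δ, ∀ T ∈ Δ, Nat.card ↥(R ⊔ T) = n → R ≠ T → ⁅R, T⁆ = ⊥ := by
  haveI : Fact (Nat.Prime 2) := ⟨Nat.prime_two⟩
  intro n
  induction n using Nat.strong_induction_on with
  | _ n ih =>
    intro R hR T hT hn hne
    have htiS : ∀ A ∈ Δ, ∀ g : S, A.map (MulAut.conj g).toMonoidHom = A ∨
        A.map (MulAut.conj g).toMonoidHom ⊓ A = ⊥ := fun A hA g => hti _ (hinv g A hA) A hA
    have hRT : R ⊓ T = ⊥ := (hti R hR T hT).resolve_left hne
    by_cases h1 : T ≤ Subgroup.normalizer (R : Set S)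
    · exact S1757.result 2 R T (hS.to_subgroup R) (hS.to_subgroup T) (htiS R hR) (htiS T hT)
        (hord R hR T hT).le hRT h1
    by_cases h2 : R ≤ Subgroup.normalizer (T : Set S)
    · rw [commutator_comm]
      exact S1757.result 2 T R (hS.to_subgroup T) (hS.to_subgroup R) (htiS T hT) (htiS R hR)
        (hord T hT R hR).le (inf_comm R T ▸ hRT) h2
    exfalso
    -- distinct conjugates of `R` (or of `T`) inside `R ⊔ T` commute
    have hsmall : ∀ A ∈ Δ, A ≤ R ⊔ T → A ≠ R ⊔ T → ∀ x ∈ R ⊔ T, ∀ y ∈ R ⊔ T,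
        cj x A ≠ cj y A → ⁅cj x A, cj y A⁆ = ⊥ := by
      intro A hA hAle hAne x hx y hy hxy
      obtain ⟨M, hM, hAM⟩ := (eq_top_or_exists_le_coatom (A.subgroupOf (R ⊔ T))).resolve_left
        (fun h => hAne (le_antisymm hAle (subgroupOf_eq_top.mp h)))
      haveI : Group.IsNilpotent ↥(R ⊔ T) := (hS.to_subgroup _).isNilpotent
      haveI hMn : M.Normal := NormalizerCondition.normal_of_coatom M
        Group.normalizerCondition_of_isNilpotent hM
      have hle : ∀ z ∈ R ⊔ T, cj z A ≤ M.map (R ⊔ T).subtype := by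
        rintro z hz _ ⟨a, ha, rfl⟩
        exact ⟨⟨z, hz⟩ * ⟨a, hAle ha⟩ * ⟨z, hz⟩⁻¹,
          hMn.conj_mem _ (hAM (mem_subgroupOf.mpr ha)) _, by simp⟩
      have hlt : Nat.card ↥(cj x A ⊔ cj y A) < n := by
        refine lt_of_le_of_lt (Nat.le_of_dvd Nat.card_pos (card_dvd_of_le (sup_le (hle x hx) (hle y hy)))) ?_
        rw [card_subtype, ← hn]
        exact lt_of_le_of_ne (card_le_card_group M) fun h => hM.1 (eq_top_of_card_eq M h)
      exact ih _ hlt _ (hinv x A hA) _ (hinv y A hA) rfl hxy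
    have hRne : R ≠ R ⊔ T := fun h => h1 ((le_sup_right.trans h.ge).trans le_normalizer)
    have hTne : T ≠ R ⊔ T := fun h => h2 ((le_sup_left.trans h.ge).trans le_normalizer)
    -- an element of `A \ N(B)` whose square normalises `B`
    have hexists : ∀ A B : Subgroup S, ¬ A ≤ Subgroup.normalizer (B : Set S) →
        ∃ a ∈ A, a ∉ Subgroup.normalizer (B : Set S) ∧ a ^ 2 ∈ Subgroup.normalizer (B : Set S) := by
      intro A B h
      obtain ⟨x, hxA, hx⟩ := SetLike.not_le_iff_exists.mp h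
      obtain ⟨k, hk⟩ := hS x
      induction k generalizing x with
      | zero => exact absurd (by rw [pow_zero, pow_one] at hk; rw [hk]; exact one_mem _) hx
      | succ k ihk =>
        by_cases h' : x ^ 2 ∈ Subgroup.normalizer (B : Set S)
        · exact ⟨x, hxA, hx, h'⟩
        · exact ihk (x ^ 2) (pow_mem hxA 2) h' (by rw [← pow_mul, ← pow_succ']; exact hk)
    -- elements of `A \ N(B)` are involutions
    have hinvol : ∀ A ∈ Δ, ∀ B ∈ Δ, A ≤ R ⊔ T → B ≤ R ⊔ T → A ≠ R ⊔ T → B ≠ R ⊔ T →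
        ¬ B ≤ Subgroup.normalizer (A : Set S) →
        ∀ r ∈ A, r ∉ Subgroup.normalizer (B : Set S) → r ^ 2 = 1 := by
      intro A hA B hB hAle hBle hAne hBne hBA r hr hrB
      obtain ⟨t, ht, htA, ht2⟩ := hexists B A hBA
      have hAt : cj t A ≠ A := fun h => htA (cj_eq_iff_mem_normalizer.mp h)
      have hBr : cj r B ≠ B := fun h => hrB (cj_eq_iff_mem_normalizer.mp h)
      have hc1 := hsmall B hB hBle hBne 1 (one_mem _) r (hAle hr) (by rw [cj_one]; exact Ne.symm hBr)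
      rw [cj_one] at hc1
      have heq : t * (r * t * r⁻¹) = (r * t * r⁻¹) * t :=
        commutatorElement_eq_one_iff_mul_comm.mp
          (mem_bot.mp (hc1 ▸ commutator_mem_commutator ht ⟨t, ht, rfl⟩))
      have hc2 := hsmall A hA hAle hAne 1 (one_mem _) t (hBle ht) (by rw [cj_one]; exact Ne.symm hAt)
      rw [cj_one] at hc2
      set a := t * r * t⁻¹ with ha
      have hra : r * a = a * r :=
        commutatorElement_eq_one_iff_mul_comm.mp
          (mem_bot.mp (hc2 ▸ commutator_mem_commutator hr ⟨r, hr, rfl⟩))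
      set b := t ^ 2 * r * (t ^ 2)⁻¹ with hb
      have hbA : b ∈ A := (mem_normalizer_iff.mp ht2 r).mp hr
      have h3 : a * b⁻¹ = r * a⁻¹ := by
        calc a * b⁻¹ = (t * (r * t * r⁻¹)) * (t ^ 2)⁻¹ := by rw [ha, hb]; group
          _ = ((r * t * r⁻¹) * t) * (t ^ 2)⁻¹ := by rw [heq]
          _ = r * a⁻¹ := by rw [ha]; group
      have h4 : a ^ 2 = r * b := by
        calc a ^ 2 = a * ((a * b⁻¹) * b) := by rw [inv_mul_cancel_right, pow_two]
          _ = (a * r) * a⁻¹ * b := by rw [h3]; group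
          _ = r * b := by rw [← hra]; group
      have hmem : a ^ 2 ∈ cj t A ⊓ A := ⟨(cj t A).pow_mem ⟨r, hr, rfl⟩ 2, h4 ▸ mul_mem hr hbA⟩
      rw [(hti _ (hinv t A hA) A hA).resolve_left hAt, mem_bot, ha, conj_pow] at hmem
      exact mul_left_cancel (a := t) (by rw [mul_one]; exact mul_inv_eq_one.mp hmem)
    have hRinv := hinvol R hR T hT le_sup_left le_sup_right hRne hTne h1
    obtain ⟨r0, hr0, hr02⟩ := hsq R hR
    obtain ⟨r, hr, hr2, hr4⟩ : ∃ r ∈ R, r ^ 2 ≠ 1 ∧ r ^ 4 = 1 := by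
      obtain ⟨k, hk⟩ := hS r0
      induction k generalizing r0 with
      | zero => exact absurd (by simp at hk; simp [hk]) hr02
      | succ k ihk =>
        by_cases h' : (r0 ^ 2) ^ 2 = 1
        · exact ⟨r0, hr0, hr02, by rw [← h', ← pow_mul]⟩
        · exact ihk (r0 ^ 2) (pow_mem hr0 2) h' (by rw [← pow_mul, ← pow_succ']; exact hk)
    have hrT : r ∈ Subgroup.normalizer (T : Set S) := by
      by_contra h; exact hr2 (hRinv r hr h)
    obtain ⟨s, hs, hsT⟩ := SetLike.not_le_iff_exists.mp h2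
    obtain ⟨t, ht, htR⟩ := SetLike.not_le_iff_exists.mp h1
    have hs2 : s * s = 1 := by rw [← pow_two]; exact hRinv s hs hsT
    have hsr : (s * r) * (s * r) = 1 := by
      rw [← pow_two]
      refine hRinv _ (mul_mem hs hr) fun h => hsT ?_
      have := mul_mem h (inv_mem hrT)
      rwa [mul_inv_cancel_right] at this
    have hsrs : s * r * s⁻¹ = r⁻¹ := by
      rw [show s⁻¹ = s from inv_eq_of_mul_eq_one_right hs2]
      exact eq_inv_of_mul_eq_one_left (by rw [mul_assoc (s * r)]; exact hsr)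
    have hTs : cj s T ≠ T := fun h => hsT (cj_eq_iff_mem_normalizer.mp h)
    have hRt : cj t R ≠ R := fun h => htR (cj_eq_iff_mem_normalizer.mp h)
    have htX : t ∈ R ⊔ T := mem_sup_right ht
    set a := t * r * t⁻¹ with ha
    have hcomm : ∀ x ∈ R, x * a = a * x := by
      intro x hx
      have hc := hsmall R hR le_sup_left hRne 1 (one_mem _) t htX (by rw [cj_one]; exact Ne.symm hRt)
      rw [cj_one] at hc
      exact commutatorElement_eq_one_iff_mul_comm.mp
        (mem_bot.mp (hc ▸ commutator_mem_commutator hx ⟨r, hr, rfl⟩))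
    have hu : r⁻¹ * a ∈ T := by
      have h := (mem_normalizer_iff''.mp hrT t).mp ht
      have e : r⁻¹ * a = (r⁻¹ * t * r) * t⁻¹ := by rw [ha]; group
      rw [e]; exact mul_mem h (inv_mem ht)
    have hsu : s * (r⁻¹ * a) * s⁻¹ = r * a := by
      calc s * (r⁻¹ * a) * s⁻¹ = (s * r * s⁻¹)⁻¹ * (s * a * s⁻¹) := by group
        _ = r * a := by rw [hsrs, inv_inv, hcomm s hs, mul_inv_cancel_right]
    have hw : r * a ∈ cj s T := ⟨r⁻¹ * a, hu, by simpa using hsu⟩
    have hca : Commute r a := hcomm r hr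
    have hsqeq : (r⁻¹ * a) ^ 2 = (r * a) ^ 2 := by
      rw [hca.inv_left.mul_pow, hca.mul_pow]
      congr 1
      rw [inv_pow, inv_eq_iff_mul_eq_one, ← pow_add]
      exact hr4
    have hmem : (r * a) ^ 2 ∈ cj s T ⊓ T := ⟨pow_mem hw 2, hsqeq ▸ pow_mem hu 2⟩
    rw [(hti _ (hinv s T hT) T hT).resolve_left hTs, mem_bot, hca.mul_pow] at hmem
    have hmem2 : r ^ 2 ∈ cj t R ⊓ R := by
      refine ⟨?_, pow_mem hr 2⟩
      rw [eq_inv_of_mul_eq_one_left hmem]
      exact (cj t R).inv_mem ((cj t R).pow_mem ⟨r, hr, rfl⟩ 2)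
    rw [(hti _ (hinv t R hR) R hR).resolve_left hRt, mem_bot] at hmem2
    exact hr2 hmem2

end Cfsg.Agent.Classif
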