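import Mathlib
import Cfsg.Agent.PGroup.Basic

/-!
TI elementary abelian 2-subgroups `V` with a conjugate inside `O₂(N(V))`: the radical is special,
`V` and the conjugate are interchanged, and the translations form a spread set.
-/

set_option autoImplicit false
set_option linter.all false

namespace Cfsg.Agent.Classif.TIRadical

open Subgroup

variable {G : Type*} [Group G]

/-- The conjugate `x S x⁻¹`. -/
def cj (x : G) (S : Subgroup G) : Subgroup G := S.map (MulAut.conj x).toMonoidHom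

theorem mem_cj {x : G} {S : Subgroup G} {w : G} : w ∈ cj x S ↔ x⁻¹ * w * x ∈ S := by
  constructor
  · rintro ⟨s, hs, rfl⟩
    show x⁻¹ * (x * s * x⁻¹) * x ∈ S
    rwa [show x⁻¹ * (x * s * x⁻¹) * x = s by group]
  · intro h
    exact ⟨_, h, show x * (x⁻¹ * w * x) * x⁻¹ = w by group⟩

theorem conj_mem_cj {x : G} {S : Subgroup G} {s : G} (h : s ∈ S) : x * s * x⁻¹ ∈ cj x S := ⟨s, h, rfl⟩

theorem cj_cj (x y : G) (S : Subgroup G) : cj x (cj y S) = cj (x * y) S := by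
  ext w; simp only [mem_cj, mul_inv_rev, mul_assoc]

theorem cj_one (S : Subgroup G) : cj 1 S = S := by ext w; simp [mem_cj]

theorem cj_inv_eq {x : G} {S T : Subgroup G} (h : cj x S = T) : cj x⁻¹ T = S := by
  rw [← h, cj_cj, inv_mul_cancel, cj_one]

theorem cj_mono (x : G) {S T : Subgroup G} (h : S ≤ T) : cj x S ≤ cj x T := Subgroup.map_mono h

theorem card_cj (x : G) (S : Subgroup G) : Nat.card (cj x S) = Nat.card S :=
  card_map_of_injective (MulAut.conj x).injective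

theorem cj_eq_of_mem_normalizer {x : G} {S : Subgroup G} (h : x ∈ normalizer (S : Set G)) : cj x S = S := by
  ext w
  rw [mem_cj]
  constructor
  · intro hw
    have := (mem_normalizer_iff.mp h (x⁻¹ * w * x)).mp hw
    rwa [show x * (x⁻¹ * w * x) * x⁻¹ = w by group] at this
  · intro hw
    rw [mem_normalizer_iff.mp h, show x * (x⁻¹ * w * x) * x⁻¹ = w by group]
    exact hw

theorem mem_normalizer_of_cj {x : G} {S : Subgroup G} (h : cj x S = S) : x ∈ normalizer (S : Set G) := by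
  rw [mem_normalizer_iff]
  intro w
  constructor
  · intro hw
    rw [← h]; exact conj_mem_cj hw
  · intro hw
    have h1 : x * w * x⁻¹ ∈ S := hw
    rw [← h, mem_cj, show x⁻¹ * (x * w * x⁻¹) * x = w by group] at h1
    exact h1

/-- An element centralizing `A` normalizes it. -/
theorem mem_normalizer_of_commutes {x : G} {A : Subgroup G} (hc : ∀ a ∈ A, x * a = a * x) :
    x ∈ normalizer (A : Set G) := by
  rw [mem_normalizer_iff]
  intro a
  constructor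
  · intro ha; rwa [hc a ha, mul_inv_cancel_right]
  · intro ha
    have e := hc _ ha
    have : a = x * a * x⁻¹ := by
      calc a = x⁻¹ * ((x * a * x⁻¹) * x) := by group
        _ = x⁻¹ * (x * (x * a * x⁻¹)) := by rw [e]
        _ = x * a * x⁻¹ := by group
    rwa [← this] at ha

/-- The hypotheses: `Q = O₂(N(V))`, `V` TI and maximal abelian normal in `N(V)`, `C(Q) ∩ N(V) ≤ Q`. -/
structure Hyp (V Q : Subgroup G) : Prop where
  comm : ∀ a ∈ V, ∀ b ∈ V, a * b = b * a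
  sq : ∀ a ∈ V, a * a = 1
  nontriv : V ≠ ⊥
  ti : ∀ x w : G, w ∈ V → w ≠ 1 → x * w * x⁻¹ ∈ V → x ∈ normalizer (V : Set G)
  q_le : Q ≤ normalizer (V : Set G)
  q_conj : ∀ m ∈ normalizer (V : Set G), ∀ w ∈ Q, m * w * m⁻¹ ∈ Q
  q_2 : IsPGroup 2 Q
  q_max : ∀ N : Subgroup G, N ≤ normalizer (V : Set G) → IsPGroup 2 N →
    (∀ m ∈ normalizer (V : Set G), ∀ w ∈ N, m * w * m⁻¹ ∈ N) → N ≤ Q
  cent_q : ∀ m ∈ normalizer (V : Set G), (∀ w ∈ Q, m * w = w * m) → m ∈ Q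
  maximal : ∀ X : Subgroup G, V ≤ X → X ≤ normalizer (V : Set G) → IsMulCommutative ↥X →
    (∀ m ∈ normalizer (V : Set G), ∀ w ∈ X, m * w * m⁻¹ ∈ X) → X = V

/-- A conjugate of `V`, different from `V`, contained in `Q`. -/
structure Rad (V Q A : Subgroup G) : Prop where
  conj : ∃ x : G, A = cj x V
  ne : A ≠ V
  le : A ≤ Q

variable {V Q A B : Subgroup G}

/-- `C_Q(V)`. -/
def PP (V Q : Subgroup G) : Subgroup G := Q ⊓ centralizer (V : Set G)

theorem Hyp.inv_eq (h : Hyp V Q) {a : G} (ha : a ∈ V) : a⁻¹ = a :=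
  inv_eq_of_mul_eq_one_right (h.sq a ha)

theorem Hyp.conj_V (h : Hyp V Q) {m : G} (hm : m ∈ normalizer (V : Set G)) {v : G} (hv : v ∈ V) :
    m * v * m⁻¹ ∈ V := (mem_normalizer_iff.mp hm v).mp hv

theorem Hyp.V_le_Q (h : Hyp V Q) : V ≤ Q :=
  h.q_max V le_normalizer (fun ⟨a, ha⟩ => ⟨1, by
    apply Subtype.ext
    rw [pow_one, SubmonoidClass.coe_pow, pow_two]
    exact h.sq a ha⟩) (fun m hm w hw => h.conj_V hm hw)

theorem mem_PP {w : G} : w ∈ PP V Q ↔ w ∈ Q ∧ ∀ v ∈ V, v * w = w * v := Iff.rfl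

theorem Hyp.V_le_PP (h : Hyp V Q) : V ≤ PP V Q := fun v hv =>
  mem_PP.mpr ⟨h.V_le_Q hv, fun u hu => h.comm u hu v hv⟩

theorem Hyp.PP_le (h : Hyp V Q) : PP V Q ≤ normalizer (V : Set G) := fun w hw => h.q_le hw.1

theorem Hyp.PP_conj (h : Hyp V Q) {m : G} (hm : m ∈ normalizer (V : Set G)) {w : G} (hw : w ∈ PP V Q) :
    m * w * m⁻¹ ∈ PP V Q := by
  refine mem_PP.mpr ⟨h.q_conj m hm w hw.1, fun v hv => ?_⟩
  have hv' := h.conj_V (inv_mem hm) hv
  rw [inv_inv] at hv'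
  have e := (mem_PP.mp hw).2 _ hv'
  calc v * (m * w * m⁻¹) = m * ((m⁻¹ * v * m) * w) * m⁻¹ := by group
    _ = m * (w * (m⁻¹ * v * m)) * m⁻¹ := by rw [e]
    _ = _ := by group

/-- Conjugates sharing a nontrivial element are equal. -/
theorem Hyp.eq_of_shared (h : Hyp V Q) {x y w : G} (hx : w ∈ cj x V) (hy : w ∈ cj y V) (hw : w ≠ 1) :
    cj x V = cj y V := by
  rw [mem_cj] at hx hy
  have h1 : y⁻¹ * x ∈ normalizer (V : Set G) := h.ti _ (x⁻¹ * w * x) hx (fun e => hw (by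
    calc w = x * (x⁻¹ * w * x) * x⁻¹ := by group
      _ = 1 := by rw [e]; group)) (by
    rwa [show y⁻¹ * x * (x⁻¹ * w * x) * (y⁻¹ * x)⁻¹ = y⁻¹ * w * y by group])
  have := cj_eq_of_mem_normalizer h1
  rw [← cj_cj] at this
  have h2 := congrArg (cj y) this
  rwa [cj_cj y y⁻¹, mul_inv_cancel, cj_one] at h2

theorem Hyp.inf_eq_bot (h : Hyp V Q) {x y : G} (hne : cj x V ≠ cj y V) : cj x V ⊓ cj y V = ⊥ := by
  rw [eq_bot_iff]
  intro w hw
  rw [Subgroup.mem_bot]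
  by_contra hw1
  exact hne (h.eq_of_shared hw.1 hw.2 hw1)

theorem Hyp.eq_one_of_inter (h : Hyp V Q) {U₁ U₂ : Subgroup G} (h1 : ∃ x, U₁ = cj x V)
    (h2 : ∃ x, U₂ = cj x V) (hne : U₁ ≠ U₂) {w : G} (hw1 : w ∈ U₁) (hw2 : w ∈ U₂) : w = 1 := by
  obtain ⟨x, rfl⟩ := h1
  obtain ⟨y, rfl⟩ := h2
  by_contra hw
  exact hne (h.eq_of_shared hw1 hw2 hw)

/-- The centralizer of a nontrivial element of a conjugate normalizes it. -/
theorem Hyp.norm_of_commute (h : Hyp V Q) {U : Subgroup G} (hU : ∃ x, U = cj x V) {u c : G}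
    (hu : u ∈ U) (hu1 : u ≠ 1) (hc : c * u = u * c) : c ∈ normalizer (U : Set G) := by
  obtain ⟨x, rfl⟩ := hU
  apply mem_normalizer_of_cj
  rw [cj_cj]
  refine h.eq_of_shared (w := u) ?_ hu hu1
  rw [← cj_cj, mem_cj, show c⁻¹ * u * c = u by rw [mul_assoc, ← hc]; group]
  exact hu

theorem Hyp.mem_M_of_commute (h : Hyp V Q) {v c : G} (hv : v ∈ V) (hv1 : v ≠ 1) (hc : c * v = v * c) :
    c ∈ normalizer (V : Set G) := h.norm_of_commute ⟨1, (cj_one V).symm⟩ hv hv1 hc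

/-- If a conjugate normalizes another one, they commute. -/
theorem Hyp.commute_of_normalizes [Finite G] (h : Hyp V Q) {U₁ U₂ : Subgroup G} (h1 : ∃ x, U₁ = cj x V)
    (h2 : ∃ x, U₂ = cj x V) (hn : U₁ ≤ normalizer (U₂ : Set G)) :
    ∀ a ∈ U₁, ∀ b ∈ U₂, a * b = b * a := by
  obtain ⟨x₁, rfl⟩ := h1
  obtain ⟨x₂, rfl⟩ := h2
  have hab : ∀ (x : G) (a : G), a ∈ cj x V → ∀ b ∈ cj x V, a * b = b * a := by
    rintro x _ ⟨a, ha, rfl⟩ _ ⟨b, hb, rfl⟩
    rw [← map_mul, ← map_mul, h.comm a ha b hb]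
  have hsq : ∀ (x : G) (a : G), a ∈ cj x V → a * a = 1 := by
    rintro x _ ⟨a, ha, rfl⟩
    rw [← map_mul, h.sq a ha, map_one]
  rcases eq_or_ne (cj x₁ V) (cj x₂ V) with e | hne
  · intro a ha b hb; exact hab x₂ a (e ▸ ha) b hb
  by_contra hcon
  push Not at hcon
  obtain ⟨a₀, ha₀, v, hv, hne₀⟩ := hcon
  have key : ∀ u ∈ cj x₁ V, u ≠ 1 → ∀ c ∈ cj x₂ V, c * u = u * c → ∀ a ∈ cj x₁ V, c * a = a * c := by
    intro u hu hu1 c hc hcu a ha
    have hcn : c ∈ normalizer (cj x₁ V : Set G) := h.norm_of_commute ⟨x₁, rfl⟩ hu hu1 hcu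
    have m1 : c * a * c⁻¹ * a⁻¹ ∈ cj x₁ V :=
      (cj x₁ V).mul_mem ((mem_normalizer_iff.mp hcn a).mp ha) ((cj x₁ V).inv_mem ha)
    have m2 : c * a * c⁻¹ * a⁻¹ ∈ cj x₂ V := by
      rw [show c * a * c⁻¹ * a⁻¹ = c * (a * c⁻¹ * a⁻¹) by group]
      exact (cj x₂ V).mul_mem hc ((mem_normalizer_iff.mp (hn ha) _).mp ((cj x₂ V).inv_mem hc))
    have := h.eq_one_of_inter ⟨x₁, rfl⟩ ⟨x₂, rfl⟩ hne m1 m2
    calc c * a = (c * a * c⁻¹ * a⁻¹) * (a * c) := by group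
      _ = a * c := by rw [this, one_mul]
  have hvnc : ∀ u ∈ cj x₁ V, u ≠ 1 → v * u ≠ u * v := fun u hu hu1 e =>
    hne₀ (key u hu hu1 v hv e a₀ ha₀).symm
  let φ : ↥(cj x₁ V) → ↥(cj x₂ V) := fun u => ⟨(u : G) * v * (u : G)⁻¹ * v⁻¹,
    (cj x₂ V).mul_mem ((mem_normalizer_iff.mp (hn u.2) v).mp hv) ((cj x₂ V).inv_mem hv)⟩
  have hinj : Function.Injective φ := by
    intro u u' e
    have e' : (u : G) * v * (u : G)⁻¹ * v⁻¹ = (u' : G) * v * (u' : G)⁻¹ * v⁻¹ := congrArg Subtype.val e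
    by_contra hc
    apply hvnc ((u' : G)⁻¹ * u) ((cj x₁ V).mul_mem ((cj x₁ V).inv_mem u'.2) u.2)
      (fun e1 => hc (Subtype.ext (inv_mul_eq_one.mp e1).symm))
    have e'' := mul_right_cancel e'
    calc v * ((u' : G)⁻¹ * u) = (u' : G)⁻¹ * ((u' : G) * v * (u' : G)⁻¹) * u := by group
      _ = (u' : G)⁻¹ * ((u : G) * v * (u : G)⁻¹) * u := by rw [e'']
      _ = _ := by group
  have hbij : Function.Bijective φ :=
    (Nat.bijective_iff_injective_and_card φ).mpr ⟨hinj, by rw [card_cj, card_cj]⟩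
  obtain ⟨u, hu⟩ := hbij.2 ⟨v, hv⟩
  have hu' : (u : G) * v * (u : G)⁻¹ * v⁻¹ = v := congrArg Subtype.val hu
  have hu1 : (u : G) ≠ 1 := by
    intro e
    rw [e] at hu'
    simp at hu'
    exact hne₀ (by rw [← hu', one_mul, mul_one])
  apply hvnc u u.2 hu1
  have e1 : (u : G) * v * (u : G)⁻¹ = 1 := by
    rw [← hsq x₂ v hv]
    exact mul_inv_eq_iff_eq_mul.mp hu'
  have hv1 : v = 1 := by
    calc v = (u : G)⁻¹ * ((u : G) * v * (u : G)⁻¹) * u := by group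
      _ = 1 := by rw [e1]; group
  rw [hv1]; simp

theorem Rad.conj' (hA : Rad V Q A) : ∃ x, A = cj x V := hA.conj

theorem Rad.card (hA : Rad V Q A) : Nat.card A = Nat.card V := by
  obtain ⟨x, rfl⟩ := hA.conj
  exact card_cj x V

theorem Rad.sq (h : Hyp V Q) (hA : Rad V Q A) {a : G} (ha : a ∈ A) : a * a = 1 := by
  obtain ⟨x, rfl⟩ := hA.conj
  obtain ⟨v, hv, rfl⟩ := ha
  rw [← map_mul, h.sq v hv, map_one]

theorem Rad.comm (h : Hyp V Q) (hA : Rad V Q A) {a b : G} (ha : a ∈ A) (hb : b ∈ A) : a * b = b * a := by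
  obtain ⟨x, rfl⟩ := hA.conj
  obtain ⟨v, hv, rfl⟩ := ha
  obtain ⟨w, hw, rfl⟩ := hb
  rw [← map_mul, ← map_mul, h.comm v hv w hw]

theorem Rad.ne_bot (h : Hyp V Q) (hA : Rad V Q A) : A ≠ ⊥ := by
  intro e
  apply h.nontriv
  rw [← Subgroup.card_eq_one, ← hA.card, e, Subgroup.card_bot]

theorem Rad.inter (h : Hyp V Q) (hA : Rad V Q A) {w : G} (hw : w ∈ A) (hwV : w ∈ V) : w = 1 :=
  h.eq_one_of_inter hA.conj ⟨1, (cj_one V).symm⟩ hA.ne hw hwV

variable [Finite G]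

theorem Rad.commute_V (h : Hyp V Q) (hA : Rad V Q A) {a v : G} (ha : a ∈ A) (hv : v ∈ V) :
    a * v = v * a :=
  h.commute_of_normalizes hA.conj ⟨1, (cj_one V).symm⟩ (hA.le.trans h.q_le) a ha v hv

theorem Rad.le_PP (h : Hyp V Q) (hA : Rad V Q A) : A ≤ PP V Q := fun a ha =>
  mem_PP.mpr ⟨hA.le ha, fun v hv => (hA.commute_V h ha hv).symm⟩

theorem Rad.conj_rad (h : Hyp V Q) (hA : Rad V Q A) {m : G} (hm : m ∈ normalizer (V : Set G)) :
    Rad V Q (cj m A) := by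
  refine ⟨?_, fun e => hA.ne ?_, ?_⟩
  · obtain ⟨x, rfl⟩ := hA.conj
    exact ⟨m * x, cj_cj m x V⟩
  · rw [← cj_inv_eq e, cj_eq_of_mem_normalizer (inv_mem hm)]
  · rintro _ ⟨a, ha, rfl⟩
    exact h.q_conj m hm a (hA.le ha)

/-- An abelian subgroup of `C(V) ∩ N(V)` normal in `N(V)` lies in `V`. -/
theorem Hyp.le_of_abelian (h : Hyp V Q) {X : Subgroup G} (hXM : X ≤ normalizer (V : Set G))
    (hc : ∀ x ∈ X, ∀ y ∈ X, x * y = y * x) (hcV : ∀ x ∈ X, ∀ v ∈ V, x * v = v * x)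
    (hn : ∀ m ∈ normalizer (V : Set G), ∀ x ∈ X, m * x * m⁻¹ ∈ X) : X ≤ V := by
  let Y : Subgroup G := Subgroup.closure ((V : Set G) ∪ (X : Set G))
  have hVY : V ≤ Y := fun v hv => Subgroup.subset_closure (Or.inl hv)
  have hXY : X ≤ Y := fun v hv => Subgroup.subset_closure (Or.inr hv)
  have hYc : IsMulCommutative ↥Y := by
    apply Subgroup.isMulCommutative_closure
    rintro a (ha | ha) b (hb | hb)
    · exact h.comm a ha b hb
    · exact (hcV b hb a ha).symm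
    · exact hcV a ha b hb
    · exact hc a ha b hb
  have := h.maximal Y hVY ((Subgroup.closure_le _).mpr (Set.union_subset le_normalizer hXM)) hYc
    (fun m hm w hw => by
      induction hw using Subgroup.closure_induction with
      | mem w hw =>
        rcases hw with hw | hw
        · exact hVY (h.conj_V hm hw)
        · exact hXY (hn m hm w hw)
      | one => simp
      | mul a b _ _ pa pb =>
        rw [show m * (a * b) * m⁻¹ = (m * a * m⁻¹) * (m * b * m⁻¹) by group]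
        exact Y.mul_mem pa pb
      | inv a _ pa =>
        rw [show m * a⁻¹ * m⁻¹ = (m * a * m⁻¹)⁻¹ by group]
        exact Y.inv_mem pa)
  exact hXY.trans this.le

/-- The elements of `P` acting trivially on `Q / V`. -/
def KK (h : Hyp V Q) : Subgroup G where
  carrier := {x | x ∈ PP V Q ∧ ∀ w ∈ Q, w * x * w⁻¹ * x⁻¹ ∈ V}
  one_mem' := ⟨one_mem _, fun w _ => by simp [V.one_mem]⟩
  mul_mem' := fun {x y} hx hy => by
    refine ⟨mul_mem hx.1 hy.1, fun w hw => ?_⟩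
    rw [show w * (x * y) * w⁻¹ * (x * y)⁻¹ =
      (w * x * w⁻¹ * x⁻¹) * (x * (w * y * w⁻¹ * y⁻¹) * x⁻¹) by group]
    exact V.mul_mem (hx.2 w hw) (h.conj_V (h.PP_le hx.1) (hy.2 w hw))
  inv_mem' := fun {x} hx => by
    refine ⟨inv_mem hx.1, fun w hw => ?_⟩
    rw [show w * x⁻¹ * w⁻¹ * x⁻¹⁻¹ = x⁻¹ * (w * x * w⁻¹ * x⁻¹)⁻¹ * x⁻¹⁻¹ by group]
    exact h.conj_V (inv_mem (h.PP_le hx.1)) (V.inv_mem (hx.2 w hw))

theorem mem_KK (h : Hyp V Q) {x : G} : x ∈ KK h ↔ x ∈ PP V Q ∧ ∀ w ∈ Q, w * x * w⁻¹ * x⁻¹ ∈ V := Iff.rfl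

theorem KK_conj (h : Hyp V Q) {m : G} (hm : m ∈ normalizer (V : Set G)) {x : G} (hx : x ∈ KK h) :
    m * x * m⁻¹ ∈ KK h := by
  refine (mem_KK h).mpr ⟨h.PP_conj hm hx.1, fun w hw => ?_⟩
  have hw' := h.q_conj m⁻¹ (inv_mem hm) w hw
  rw [inv_inv] at hw'
  rw [show w * (m * x * m⁻¹) * w⁻¹ * (m * x * m⁻¹)⁻¹ =
    m * ((m⁻¹ * w * m) * x * (m⁻¹ * w * m)⁻¹ * x⁻¹) * m⁻¹ by group]
  exact h.conj_V hm (hx.2 _ hw')

/-- `C_P(K) ≤ V`. -/
theorem Hyp.cent_KK_le (h : Hyp V Q) : PP V Q ⊓ centralizer (KK h : Set G) ≤ V := by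
  haveI := Fact.mk Nat.prime_two
  intro n₀ hn₀
  by_contra hn₀V
  let Vq : Subgroup ↥Q := V.subgroupOf Q
  haveI : Vq.Normal := by
    constructor
    intro n hn g
    exact h.conj_V (h.q_le g.2) hn
  let N : Subgroup ↥Q := (PP V Q ⊓ centralizer (KK h : Set G)).subgroupOf Q
  haveI : N.Normal := by
    constructor
    intro n hn g
    have hgM := h.q_le g.2
    refine mem_subgroupOf.mpr ⟨h.PP_conj hgM hn.1, ?_⟩
    show _ ∈ centralizer _
    rw [mem_centralizer_iff]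
    intro k hk
    have hk' := KK_conj h (inv_mem hgM) hk
    rw [inv_inv] at hk'
    have e := mem_centralizer_iff.mp hn.2 _ hk'
    simp only [coe_subtype] at e
    show k * ((g : G) * n * (g : G)⁻¹) = (g : G) * n * (g : G)⁻¹ * k
    calc k * ((g : G) * n * (g : G)⁻¹) = (g : G) * (((g : G)⁻¹ * k * g) * n) * (g : G)⁻¹ := by group
      _ = (g : G) * (n * ((g : G)⁻¹ * k * g)) * (g : G)⁻¹ := by rw [e]
      _ = _ := by group
  let π := QuotientGroup.mk' Vq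
  haveI : (N.map π).Normal := Subgroup.Normal.map inferInstance π (QuotientGroup.mk'_surjective _)
  have hne : N.map π ≠ ⊥ := by
    intro e
    apply hn₀V
    have : π ⟨n₀, hn₀.1.1⟩ ∈ N.map π := mem_map_of_mem π hn₀
    rw [e, Subgroup.mem_bot] at this
    exact mem_subgroupOf.mp ((QuotientGroup.eq_one_iff (N := Vq) _).mp this)
  have hmeet := Cfsg.Agent.PGroup.inf_center_ne_bot (p := 2) (h.q_2.to_quotient Vq) (N.map π) hne
  obtain ⟨z, hz, hz1⟩ : ∃ z ∈ N.map π ⊓ Subgroup.center (↥Q ⧸ Vq), z ≠ 1 := by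
    by_contra hc
    push Not at hc
    exact hmeet ((Subgroup.eq_bot_iff_forall _).mpr hc)
  obtain ⟨⟨n, hn, rfl⟩, hzc⟩ := hz
  have hnV : (n : G) ∉ V := fun hv => hz1 ((QuotientGroup.eq_one_iff n).mpr hv)
  have hnK : (n : G) ∈ KK h := by
    refine (mem_KK h).mpr ⟨hn.1, fun w hw => ?_⟩
    have e : π ⟨w, hw⟩ * π n = π n * π ⟨w, hw⟩ := Subgroup.mem_center_iff.mp hzc _
    have : π (⟨w, hw⟩ * n * ⟨w, hw⟩⁻¹ * n⁻¹) = 1 := by
      rw [map_mul, map_mul, map_mul, e, map_inv, map_inv]; group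
    exact mem_subgroupOf.mp ((QuotientGroup.eq_one_iff (N := Vq) _).mp this)
  let X : Subgroup G := KK h ⊓ centralizer (KK h : Set G)
  have hX : X ≤ V := by
    refine h.le_of_abelian (fun x hx => h.PP_le hx.1.1) ?_ ?_ ?_
    · intro x hx y hy
      exact mem_centralizer_iff.mp hy.2 x hx.1
    · intro x hx v hv
      exact ((mem_PP.mp hx.1.1).2 v hv).symm
    · intro m hm x hx
      refine ⟨KK_conj h hm hx.1, ?_⟩
      show _ ∈ centralizer _
      rw [mem_centralizer_iff]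
      intro k hk
      have hk' := KK_conj h (inv_mem hm) hk
      rw [inv_inv] at hk'
      have e := mem_centralizer_iff.mp hx.2 _ hk'
      calc k * (m * x * m⁻¹) = m * ((m⁻¹ * k * m) * x) * m⁻¹ := by group
        _ = m * (x * (m⁻¹ * k * m)) * m⁻¹ := by rw [e]
        _ = _ := by group
  exact hnV (hX ⟨hnK, hn.2⟩)

/-- `C_P(P) ≤ V`. -/
theorem Hyp.center_PP_le (h : Hyp V Q) {z : G} (hz : z ∈ PP V Q) (hc : ∀ x ∈ PP V Q, x * z = z * x) :
    z ∈ V := h.cent_KK_le ⟨hz, mem_centralizer_iff.mpr fun k hk => hc k hk.1⟩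

theorem Hyp.V_central (h : Hyp V Q) {x v : G} (hx : x ∈ PP V Q) (hv : v ∈ V) : v * x = x * v :=
  (mem_PP.mp hx).2 v hv

/-- `[P, P] ≤ V`. -/
theorem Hyp.comm_mem (h : Hyp V Q) {x y : G} (hx : x ∈ PP V Q) (hy : y ∈ PP V Q) :
    x * y * x⁻¹ * y⁻¹ ∈ V := by
  have hmem := mul_mem (mul_mem (mul_mem hx hy) (inv_mem hx)) (inv_mem hy)
  refine h.cent_KK_le ⟨hmem, ?_⟩
  show _ ∈ centralizer _
  rw [mem_centralizer_iff]
  intro k hk
  have hxk := hk.2 x hx.1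
  have hyk := hk.2 y hy.1
  set c₁ := x * k * x⁻¹ * k⁻¹ with hc₁
  set c₂ := y * k * y⁻¹ * k⁻¹ with hc₂
  have e1 : x * k * x⁻¹ = c₁ * k := by rw [hc₁]; group
  have e2 : y * k * y⁻¹ = c₂ * k := by rw [hc₂]; group
  have cen : ∀ c ∈ V, ∀ w ∈ PP V Q, w * c * w⁻¹ = c := fun c hc w hw => by
    rw [← h.V_central hw hc]; group
  have e1' : x⁻¹ * k * x = c₁⁻¹ * k := by
    have h1 : x⁻¹ * (x * k * x⁻¹) * x = x⁻¹ * (c₁ * k) * x := by rw [e1]
    have h2 : x⁻¹ * c₁ * x = c₁ := by simpa using cen c₁ hxk x⁻¹ (inv_mem hx)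
    calc x⁻¹ * k * x = (x⁻¹ * c₁ * x)⁻¹ * (x⁻¹ * (c₁ * k) * x) := by group
      _ = c₁⁻¹ * k := by rw [h2, ← h1]; group
  have e2' : y⁻¹ * k * y = c₂⁻¹ * k := by
    have h1 : y⁻¹ * (y * k * y⁻¹) * y = y⁻¹ * (c₂ * k) * y := by rw [e2]
    have h2 : y⁻¹ * c₂ * y = c₂ := by simpa using cen c₂ hyk y⁻¹ (inv_mem hy)
    calc y⁻¹ * k * y = (y⁻¹ * c₂ * y)⁻¹ * (y⁻¹ * (c₂ * k) * y) := by group
      _ = c₂⁻¹ * k := by rw [h2, ← h1]; group
  have main : (x * y * x⁻¹ * y⁻¹) * k * (x * y * x⁻¹ * y⁻¹)⁻¹ = k := by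
    calc (x * y * x⁻¹ * y⁻¹) * k * (x * y * x⁻¹ * y⁻¹)⁻¹
        = x * y * x⁻¹ * (y⁻¹ * k * y) * x * y⁻¹ * x⁻¹ := by group
      _ = x * y * x⁻¹ * (c₂⁻¹ * k) * x * y⁻¹ * x⁻¹ := by rw [e2']
      _ = x * y * ((x⁻¹ * c₂⁻¹ * x) * (x⁻¹ * k * x)) * y⁻¹ * x⁻¹ := by group
      _ = x * y * (c₂⁻¹ * (c₁⁻¹ * k)) * y⁻¹ * x⁻¹ := by
        rw [e1', show x⁻¹ * c₂⁻¹ * x = c₂⁻¹ by simpa using cen c₂⁻¹ (V.inv_mem hyk) x⁻¹ (inv_mem hx)]
      _ = x * ((y * (c₂⁻¹ * c₁⁻¹) * y⁻¹) * (y * k * y⁻¹)) * x⁻¹ := by group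
      _ = x * ((c₂⁻¹ * c₁⁻¹) * (c₂ * k)) * x⁻¹ := by
        rw [e2, cen _ (V.mul_mem (V.inv_mem hyk) (V.inv_mem hxk)) y hy]
      _ = x * (c₁⁻¹ * k) * x⁻¹ := by
        rw [h.comm c₂⁻¹ (V.inv_mem hyk) c₁⁻¹ (V.inv_mem hxk)]; group
      _ = (x * c₁⁻¹ * x⁻¹) * (x * k * x⁻¹) := by group
      _ = k := by rw [cen _ (V.inv_mem hxk) x hx, e1]; group
  exact (mul_inv_eq_iff_eq_mul.mp main).symm

/-- The commutator form on `P`. -/
def br (x y : G) : G := x * y * x⁻¹ * y⁻¹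

theorem Hyp.br_mem (h : Hyp V Q) {x y : G} (hx : x ∈ PP V Q) (hy : y ∈ PP V Q) : br x y ∈ V :=
  h.comm_mem hx hy

theorem Hyp.conj_eq (h : Hyp V Q) {x y : G} : x * y * x⁻¹ = br x y * y := by rw [br]; group

theorem Hyp.br_symm (h : Hyp V Q) {x y : G} (hx : x ∈ PP V Q) (hy : y ∈ PP V Q) : br y x = br x y := by
  rw [← h.inv_eq (h.br_mem hx hy), br, br]; group

theorem Hyp.br_mul_left (h : Hyp V Q) {x x' y : G} (hx : x ∈ PP V Q) (hx' : x' ∈ PP V Q)
    (hy : y ∈ PP V Q) : br (x * x') y = br x y * br x' y := by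
  have h1 := h.br_mem hx' hy
  have : br (x * x') y = x * br x' y * x⁻¹ * br x y := by rw [br, br, br]; group
  rw [this, ← h.V_central hx h1, mul_inv_cancel_right, h.comm _ h1 _ (h.br_mem hx hy)]

theorem Hyp.br_mul_right (h : Hyp V Q) {x y y' : G} (hx : x ∈ PP V Q) (hy : y ∈ PP V Q)
    (hy' : y' ∈ PP V Q) : br x (y * y') = br x y * br x y' := by
  rw [h.br_symm (mul_mem hy hy') hx, h.br_mul_left hy hy' hx, ← h.br_symm hx hy, ← h.br_symm hx hy']

theorem br_eq_one_iff {x y : G} : br x y = 1 ↔ x * y = y * x := by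
  rw [br, mul_inv_eq_one, mul_inv_eq_iff_eq_mul]

/-- Squares of elements of `P` lie in `V`. -/
theorem Hyp.sq_mem (h : Hyp V Q) {x : G} (hx : x ∈ PP V Q) : x * x ∈ V := by
  refine h.cent_KK_le ⟨mul_mem hx hx, ?_⟩
  show _ ∈ centralizer _
  rw [mem_centralizer_iff]
  intro k hk
  exact (br_eq_one_iff.mp (by
    rw [h.br_mul_left hx hx hk.1]
    exact h.sq _ (h.br_mem hx hk.1))).symm

variable (h : Hyp V Q)

/-- `W = V A`. -/
def WW (V A : Subgroup G) : Subgroup G := V ⊔ A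

include h in
theorem mem_WW (hA : Rad V Q A) {w : G} : w ∈ WW V A ↔ ∃ v ∈ V, ∃ a ∈ A, w = v * a := by
  constructor
  · intro hw
    rw [WW, Subgroup.sup_eq_closure] at hw
    induction hw using Subgroup.closure_induction with
    | mem w hw =>
      rcases hw with hw | hw
      · exact ⟨w, hw, 1, A.one_mem, (mul_one w).symm⟩
      · exact ⟨1, V.one_mem, w, hw, (one_mul w).symm⟩
    | one => exact ⟨1, V.one_mem, 1, A.one_mem, (one_mul 1).symm⟩
    | mul u u' _ _ pu pu' =>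
      obtain ⟨v, hv, a, ha, rfl⟩ := pu
      obtain ⟨v', hv', a', ha', rfl⟩ := pu'
      refine ⟨v * v', V.mul_mem hv hv', a * a', A.mul_mem ha ha', ?_⟩
      calc v * a * (v' * a') = v * (a * v') * a' := by group
        _ = v * (v' * a) * a' := by rw [hA.commute_V h ha hv']
        _ = _ := by group
    | inv u _ pu =>
      obtain ⟨v, hv, a, ha, rfl⟩ := pu
      refine ⟨v⁻¹, V.inv_mem hv, a⁻¹, A.inv_mem ha, ?_⟩
      rw [mul_inv_rev, hA.commute_V h (A.inv_mem ha) (V.inv_mem hv)]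
  · rintro ⟨v, hv, a, ha, rfl⟩
    exact mul_mem (mem_sup_left hv) (mem_sup_right ha)

include h in
theorem WW_unique (hA : Rad V Q A) {v v' a a' : G} (hv : v ∈ V) (hv' : v' ∈ V) (ha : a ∈ A)
    (ha' : a' ∈ A) (e : v * a = v' * a') : v = v' ∧ a = a' := by
  have e1 : v'⁻¹ * v = a' * a⁻¹ := by
    calc v'⁻¹ * v = v'⁻¹ * (v * a) * a⁻¹ := by group
      _ = _ := by rw [e]; group
  have h1 : a' * a⁻¹ = 1 := hA.inter h (A.mul_mem ha' (A.inv_mem ha)) (e1 ▸ V.mul_mem (V.inv_mem hv') hv)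
  have ha2 : a = a' := (mul_inv_eq_one.mp h1).symm
  subst ha2
  exact ⟨mul_right_cancel e, rfl⟩

/-- A second radical conjugate, not commuting with `A`. -/
def NC (A B : Subgroup G) : Prop := ∃ a ∈ A, ∃ b ∈ B, a * b ≠ b * a

theorem NC.symm (hn : NC A B) : NC B A := by
  obtain ⟨a, ha, b, hb, e⟩ := hn
  exact ⟨b, hb, a, ha, fun e' => e e'.symm⟩

include h in
theorem exists_partner (hA : Rad V Q A) : ∃ B, Rad V Q B ∧ NC A B := by
  by_contra hcon
  have hcomm : ∀ B, Rad V Q B → ∀ a ∈ A, ∀ b ∈ B, a * b = b * a := by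
    intro B hB a ha b hb
    by_contra e
    exact hcon ⟨B, hB, a, ha, b, hb, e⟩
  let S : Set G := {w | ∃ m ∈ normalizer (V : Set G), w ∈ cj m A}
  let X := Subgroup.closure S
  have hS : ∀ w ∈ S, w ∈ PP V Q := by
    rintro w ⟨m, hm, hw⟩
    exact (hA.conj_rad h hm).le_PP h hw
  have hXP : X ≤ PP V Q := (Subgroup.closure_le _).mpr hS
  have hXc : IsMulCommutative ↥X := by
    apply Subgroup.isMulCommutative_closure
    rintro u ⟨m, hm, hu⟩ u' ⟨m', hm', hu'⟩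
    rw [mem_cj] at hu hu'
    have := hcomm (cj (m⁻¹ * m') A) (hA.conj_rad h (mul_mem (inv_mem hm) hm')) _ hu (m⁻¹ * u' * m)
      (mem_cj.mpr (by rwa [show (m⁻¹ * m')⁻¹ * (m⁻¹ * u' * m) * (m⁻¹ * m') = m'⁻¹ * u' * m' by group]))
    calc u * u' = m * ((m⁻¹ * u * m) * (m⁻¹ * u' * m)) * m⁻¹ := by group
      _ = m * ((m⁻¹ * u' * m) * (m⁻¹ * u * m)) * m⁻¹ := by rw [this]
      _ = _ := by group
  have hXn : ∀ m ∈ normalizer (V : Set G), ∀ x ∈ X, m * x * m⁻¹ ∈ X := by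
    intro m hm x hx
    induction hx using Subgroup.closure_induction with
    | mem w hw =>
      obtain ⟨m', hm', hw⟩ := hw
      exact Subgroup.subset_closure ⟨m * m', mul_mem hm hm', by rw [← cj_cj]; exact conj_mem_cj hw⟩
    | one => simp
    | mul a b _ _ pa pb =>
      rw [show m * (a * b) * m⁻¹ = (m * a * m⁻¹) * (m * b * m⁻¹) by group]
      exact X.mul_mem pa pb
    | inv a _ pa =>
      rw [show m * a⁻¹ * m⁻¹ = (m * a * m⁻¹)⁻¹ by group]
      exact X.inv_mem pa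
  have hXV : X ≤ V := h.le_of_abelian (hXP.trans h.PP_le)
    (fun x hx y hy => congrArg Subtype.val (hXc.is_comm.comm ⟨x, hx⟩ ⟨y, hy⟩))
    (fun x hx v hv => (h.V_central (hXP hx) hv).symm) hXn
  apply hA.ne_bot h
  rw [Subgroup.eq_bot_iff_forall]
  intro a ha
  exact hA.inter h ha (hXV (Subgroup.subset_closure ⟨1, one_mem _, by rwa [cj_one]⟩))

include h in
/-- An element of `P` centralizing one element of `A#` centralizes `A`. -/
theorem commute_all (hA : Rad V Q A) {x a : G} (hx : x ∈ PP V Q) (ha : a ∈ A) (ha1 : a ≠ 1)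
    (e : x * a = a * x) : ∀ a' ∈ A, x * a' = a' * x := by
  intro a' ha'
  have hn := h.norm_of_commute hA.conj ha ha1 e
  have : br x a' = 1 := hA.inter h
    (A.mul_mem ((mem_normalizer_iff.mp hn a').mp ha') (A.inv_mem ha')) (h.br_mem hx (hA.le_PP h ha'))
  exact br_eq_one_iff.mp this

include h in
theorem B_not_commute (hA : Rad V Q A) (hB : Rad V Q B) (hn : NC A B) {a b : G} (ha : a ∈ A)
    (hb : b ∈ B) (ha1 : a ≠ 1) (hb1 : b ≠ 1) : b * a ≠ a * b := by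
  intro e
  obtain ⟨a₀, ha₀, b₀, hb₀, ne⟩ := hn
  have h1 := commute_all h hA (hB.le_PP h hb) ha ha1 e a₀ ha₀
  exact ne (commute_all h hB (hA.le_PP h ha₀) hb hb1 h1.symm b₀ hb₀)

include h in
theorem br_inj (hA : Rad V Q A) (hB : Rad V Q B) (hn : NC A B) {a b b' : G} (ha : a ∈ A)
    (ha1 : a ≠ 1) (hb : b ∈ B) (hb' : b' ∈ B) (e : br b a = br b' a) : b = b' := by
  by_contra hne
  apply B_not_commute h hA hB hn ha (B.mul_mem hb (B.inv_mem hb')) ha1
    (fun e1 => hne (mul_inv_eq_one.mp e1))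
  apply br_eq_one_iff.mp
  have hb'i : b'⁻¹ = b' := inv_eq_of_mul_eq_one_right (hB.sq h hb')
  rw [hb'i, h.br_mul_left (hB.le_PP h hb) (hB.le_PP h hb') (hA.le_PP h ha), e]
  exact h.sq _ (h.br_mem (hB.le_PP h hb') (hA.le_PP h ha))

include h in
theorem br_surj (hA : Rad V Q A) (hB : Rad V Q B) (hn : NC A B) {a v : G} (ha : a ∈ A)
    (ha1 : a ≠ 1) (hv : v ∈ V) : ∃ b ∈ B, br b a = v := by
  let f : ↥B → ↥V := fun b => ⟨br b a, h.br_mem (hB.le_PP h b.2) (hA.le_PP h ha)⟩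
  have hinj : Function.Injective f := fun b b' e =>
    Subtype.ext (br_inj h hA hB hn ha ha1 b.2 b'.2 (congrArg Subtype.val e))
  obtain ⟨b, hb⟩ := ((Nat.bijective_iff_injective_and_card f).mpr ⟨hinj, hB.card⟩).2 ⟨v, hv⟩
  exact ⟨b, b.2, congrArg Subtype.val hb⟩

include h in
/-- `P = D B` with `D = C_P(A)`. -/
theorem exists_B_part (hA : Rad V Q A) (hB : Rad V Q B) (hn : NC A B) {x : G} (hx : x ∈ PP V Q) :
    ∃ b ∈ B, ∀ a ∈ A, br x a = br b a ∧ (b * x) * a = a * (b * x) := by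
  obtain ⟨a₀, ha₀, ha₀1⟩ := exists_ne_one hA h
  obtain ⟨b, hb, e⟩ := br_surj h hA hB hn ha₀ ha₀1 (h.br_mem hx (hA.le_PP h ha₀))
  have hbx : b * x ∈ PP V Q := mul_mem (hB.le_PP h hb) hx
  have h1 : (b * x) * a₀ = a₀ * (b * x) := by
    apply br_eq_one_iff.mp
    rw [h.br_mul_left (hB.le_PP h hb) hx (hA.le_PP h ha₀), e]
    exact h.sq _ (h.br_mem hx (hA.le_PP h ha₀))
  refine ⟨b, hb, fun a ha => ⟨?_, commute_all h hA hbx ha₀ ha₀1 h1 a ha⟩⟩
  have h2 := br_eq_one_iff.mpr (commute_all h hA hbx ha₀ ha₀1 h1 a ha)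
  rw [h.br_mul_left (hB.le_PP h hb) hx (hA.le_PP h ha)] at h2
  rw [← inv_eq_of_mul_eq_one_right h2, h.inv_eq (h.br_mem (hB.le_PP h hb) (hA.le_PP h ha))]
where
  exists_ne_one {A : Subgroup G} (hA : Rad V Q A) (h : Hyp V Q) : ∃ a ∈ A, a ≠ 1 := by
    by_contra hc
    push Not at hc
    exact hA.ne_bot h ((Subgroup.eq_bot_iff_forall A).mpr hc)

include h in
theorem exists_ne_one' (hA : Rad V Q A) : ∃ a ∈ A, a ≠ 1 := exists_B_part.exists_ne_one hA h

include h in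
/-- `Z(C_P(A)) = W`. -/
theorem center_D (hA : Rad V Q A) {t : G} (ht : t ∈ PP V Q) (htA : ∀ a ∈ A, t * a = a * t)
    (htD : ∀ d ∈ PP V Q, (∀ a ∈ A, d * a = a * d) → t * d = d * t) : t ∈ WW V A := by
  obtain ⟨B, hB, hn⟩ := exists_partner h hA
  obtain ⟨b₀, hb₀, hb₀1⟩ := exists_ne_one' h hB
  obtain ⟨a, ha, e⟩ := br_surj h hB hA hn.symm hb₀ hb₀1 (h.br_mem ht (hB.le_PP h hb₀))
  have hr : a * t ∈ PP V Q := mul_mem (hA.le_PP h ha) ht
  have hrB : ∀ b ∈ B, (a * t) * b = b * (a * t) := by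
    refine commute_all h hB hr hb₀ hb₀1 (br_eq_one_iff.mp ?_)
    rw [h.br_mul_left (hA.le_PP h ha) ht (hB.le_PP h hb₀), e]
    exact h.sq _ (h.br_mem ht (hB.le_PP h hb₀))
  have hrV : a * t ∈ V := by
    refine h.center_PP_le hr fun x hx => ?_
    obtain ⟨b, hb, hbx⟩ := exists_B_part h hA hB hn hx
    have hd := fun a' ha' => (hbx a' ha').2
    have hdP : b * x ∈ PP V Q := mul_mem (hB.le_PP h hb) hx
    have c1 : (a * t) * (b * x) = (b * x) * (a * t) := by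
      calc (a * t) * (b * x) = a * (t * (b * x)) := by group
        _ = a * ((b * x) * t) := by rw [htD _ hdP hd]
        _ = (a * (b * x)) * t := by group
        _ = ((b * x) * a) * t := by rw [← hd a ha]
        _ = _ := by group
    calc x * (a * t) = b⁻¹ * ((b * x) * (a * t)) := by group
      _ = b⁻¹ * ((a * t) * (b * x)) := by rw [c1]
      _ = b⁻¹ * ((a * t) * b) * x := by group
      _ = b⁻¹ * (b * (a * t)) * x := by rw [hrB b hb]
      _ = (a * t) * x := by group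
  rw [show t = a * (a * t) by rw [← mul_assoc, hA.sq h ha, one_mul]]
  exact mul_mem (mem_sup_right ha) (mem_sup_left hrV)

include h in
theorem translate (hA : Rad V Q A) {a v : G} (ha : a ∈ A) (ha1 : a ≠ 1) (hv : v ∈ V) :
    ∃ x ∈ PP V Q, x * a * x⁻¹ = v * a := by
  obtain ⟨B, hB, hn⟩ := exists_partner h hA
  obtain ⟨b, hb, e⟩ := br_surj h hA hB hn ha ha1 hv
  exact ⟨b, hB.le_PP h hb, by rw [h.conj_eq, e]⟩

include h in
theorem conj_mem_WW (hA : Rad V Q A) {x w : G} (hx : x ∈ PP V Q) (hw : w ∈ WW V A) :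
    x * w * x⁻¹ ∈ WW V A := by
  obtain ⟨v, hv, a, ha, rfl⟩ := (mem_WW h hA).mp hw
  refine (mem_WW h hA).mpr ⟨v * br x a, V.mul_mem hv (h.br_mem hx (hA.le_PP h ha)), a, ha, ?_⟩
  calc x * (v * a) * x⁻¹ = (x * v) * a * x⁻¹ := by group
    _ = (v * x) * a * x⁻¹ := by rw [h.V_central hx hv]
    _ = v * (x * a * x⁻¹) := by group
    _ = _ := by rw [h.conj_eq (x := x) (y := a), mul_assoc]

include h in
theorem cj_WW_of_PP (hA : Rad V Q A) {x : G} (hx : x ∈ PP V Q) : cj x (WW V A) = WW V A := by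
  apply le_antisymm
  · rintro _ ⟨w, hw, rfl⟩; exact conj_mem_WW h hA hx hw
  · intro w hw
    rw [mem_cj]
    have := conj_mem_WW h hA (inv_mem hx) hw
    rwa [inv_inv] at this

include h in
theorem cj_le_WW (hA : Rad V Q A) {x : G} (hx : x ∈ PP V Q) : cj x A ≤ WW V A :=
  (cj_mono x le_sup_right).trans (cj_WW_of_PP h hA hx).le

include h in
/-- A conjugate of `V` meeting `W` is `V` or a translate of `A`. -/
theorem member (hA : Rad V Q A) {U : Subgroup G} (hU : ∃ x, U = cj x V) {w : G} (hwU : w ∈ U)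
    (hw : w ∈ WW V A) (hw1 : w ≠ 1) : U = V ∨ ∃ x ∈ PP V Q, U = cj x A := by
  obtain ⟨v, hv, a, ha, rfl⟩ := (mem_WW h hA).mp hw
  obtain ⟨y, rfl⟩ := hU
  rcases eq_or_ne a 1 with rfl | ha1
  · left
    rw [mul_one] at hwU hw1
    have := h.eq_of_shared (y := 1) hwU (by rwa [cj_one]) hw1
    rwa [cj_one] at this
  · right
    obtain ⟨x, hx, e⟩ := translate h hA ha ha1 hv
    obtain ⟨z, hz⟩ := (hA.conj_rad h (h.PP_le hx)).conj
    refine ⟨x, hx, ?_⟩
    rw [hz]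
    refine h.eq_of_shared hwU ?_ hw1
    rw [← hz, ← e]
    exact conj_mem_cj ha

include h in
theorem member_le (hA : Rad V Q A) {U : Subgroup G} (hU : ∃ x, U = cj x V) {w : G} (hwU : w ∈ U)
    (hw : w ∈ WW V A) (hw1 : w ≠ 1) : U ≤ WW V A := by
  rcases member h hA hU hwU hw hw1 with e | ⟨x, hx, e⟩
  · rw [e]; exact le_sup_left
  · rw [e]; exact cj_le_WW h hA hx

include h in
/-- An element of `N(A)` moving `V` inside `W`. -/
theorem exists_move (hA : Rad V Q A) :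
    ∃ y : G, cj y A = A ∧ cj y V ≠ V ∧ cj y V ≤ WW V A := by
  haveI := Fact.mk Nat.prime_two
  obtain ⟨B, hB, hn⟩ := exists_partner h hA
  let M : Subgroup G := normalizer (V : Set G)
  let M' : Subgroup G := normalizer (A : Set G)
  let D : Subgroup G := PP V Q ⊓ M'
  have hDc : ∀ d ∈ D, ∀ a ∈ A, d * a = a * d := by
    intro d hd a ha
    exact br_eq_one_iff.mp (hA.inter h (A.mul_mem ((mem_normalizer_iff.mp hd.2 a).mp ha) (A.inv_mem ha))
      (h.br_mem hd.1 (hA.le_PP h ha)))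
  have hDV : V ≤ D := fun v hv => ⟨h.V_le_PP hv,
    mem_normalizer_of_commutes fun a ha => (hA.commute_V h ha hv).symm⟩
  have hD2 : IsPGroup 2 D := h.q_2.to_le (fun d hd => hd.1.1)
  have hDle : D ≤ M ⊓ M' := fun d hd => ⟨h.PP_le hd.1, hd.2⟩
  obtain ⟨S₀, hS₀⟩ := (hD2.comap_of_injective (M ⊓ M').subtype Subtype.val_injective).exists_le_sylow
  let S : Subgroup G := (S₀ : Subgroup ↥(M ⊓ M')).map (M ⊓ M').subtype
  have hS2 : IsPGroup 2 S := S₀.isPGroup'.map _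
  have hSle : S ≤ M ⊓ M' := map_subtype_le _
  have hDS : D ≤ S := fun d hd => ⟨⟨d, hDle hd⟩, hS₀ hd, rfl⟩
  have hmax : ∀ R : Subgroup G, IsPGroup 2 R → S ≤ R → R ≤ M ⊓ M' → R = S := by
    intro R hR hSR hRle
    have e : R.subgroupOf (M ⊓ M') = (S₀ : Subgroup ↥(M ⊓ M')) :=
      S₀.is_maximal' (hR.comap_of_injective _ Subtype.val_injective)
        (fun s hs => mem_subgroupOf.mpr (hSR (mem_map_of_mem (M ⊓ M').subtype hs)))
    show R = (S₀ : Subgroup ↥(M ⊓ M')).map (M ⊓ M').subtype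
    rw [← e, subgroupOf_map_subtype, inf_eq_left.mpr hRle]
  obtain ⟨T₀, hT₀⟩ := (hS2.comap_of_injective M'.subtype Subtype.val_injective).exists_le_sylow
  let T : Subgroup G := (T₀ : Subgroup ↥M').map M'.subtype
  have hT2 : IsPGroup 2 T := T₀.isPGroup'.map _
  have hTM' : T ≤ M' := map_subtype_le _
  have hST : S ≤ T := fun s hs => ⟨⟨s, (hSle hs).2⟩, hT₀ hs, rfl⟩
  have hne : S ≠ T := by
    intro e
    -- then `S` would be a Sylow 2-subgroup of `N(V)` and contain `P`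
    let SM : Subgroup ↥M := S.subgroupOf M
    obtain ⟨R₀, hR₀⟩ := (hS2.comap_of_injective M.subtype Subtype.val_injective).exists_le_sylow
    obtain ⟨x, hx⟩ := hA.conj
    have hMM' : Nat.card M = Nat.card M' := by
      have : M' = cj x M := by
        show normalizer (A : Set G) = cj x (normalizer (V : Set G))
        rw [hx]
        ext w
        constructor
        · intro hw
          rw [mem_cj]
          apply mem_normalizer_of_cj
          have := cj_eq_of_mem_normalizer hw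
          rw [← cj_cj, ← cj_cj, this, cj_cj, inv_mul_cancel, cj_one]
        · intro hw
          apply mem_normalizer_of_cj
          rw [mem_cj] at hw
          have := cj_eq_of_mem_normalizer hw
          rw [← cj_cj, ← cj_cj] at this
          have h2 := congrArg (cj x) this
          rwa [cj_cj x x⁻¹, mul_inv_cancel, cj_one] at h2
      rw [this, card_cj]
    have hRS : R₀.toSubgroup.map M.subtype = S := by
      refine (Subgroup.eq_of_le_of_card_ge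
        (show S ≤ R₀.toSubgroup.map M.subtype from fun s hs => ⟨⟨s, (hSle hs).1⟩, hR₀ hs, rfl⟩) ?_).symm
      rw [card_map_of_injective M.subtype_injective, R₀.card_eq_multiplicity, hMM', e,
        card_map_of_injective M'.subtype_injective, T₀.card_eq_multiplicity]
    have hQS : ∀ w ∈ PP V Q, w ∈ M' := by
      intro w hw
      have hQR : Q.subgroupOf M ≤ (R₀ : Subgroup ↥M) := by
        haveI : (Q.subgroupOf M).Normal := ⟨fun n hn g => h.q_conj g g.2 n hn⟩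
        obtain ⟨R₁, hR₁⟩ := (h.q_2.comap_of_injective M.subtype Subtype.val_injective).exists_le_sylow
        obtain ⟨g, hg⟩ := MulAction.exists_smul_eq ↥M R₁ R₀
        intro q hq
        rw [← hg, Sylow.coe_subgroup_smul, Subgroup.mem_pointwise_smul_iff_inv_smul_mem]
        exact hR₁ ((inferInstance : (Q.subgroupOf M).Normal).conj_mem' q hq g)
      have : w ∈ S := by
        rw [← hRS]
        exact ⟨⟨w, h.PP_le hw⟩, hQR hw.1, rfl⟩
      exact (hSle this).2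
    obtain ⟨a, ha, b, hb, ne⟩ := hn
    exact ne (hDc b ⟨hB.le_PP h hb, hQS b (hB.le_PP h hb)⟩ a ha).symm
  obtain ⟨y, hyT, hyN, hyS⟩ : ∃ y ∈ T, y ∈ normalizer (S : Set G) ∧ y ∉ S := by
    haveI : Group.IsNilpotent ↥T := hT2.isNilpotent
    have hlt : S.subgroupOf T < ⊤ := by
      rw [lt_top_iff_ne_top]
      intro e
      exact hne (le_antisymm hST (subgroupOf_eq_top.mp e))
    have := Group.normalizerCondition_of_isNilpotent _ hlt
    obtain ⟨z, hz, hzS⟩ := SetLike.exists_of_lt this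
    refine ⟨z, z.2, ?_, hzS⟩
    rw [mem_normalizer_iff]
    intro s
    constructor
    · intro hs
      exact ((mem_normalizer_iff.mp hz) ⟨s, hST hs⟩).mp hs
    · intro hs
      have hsT : s ∈ T := by
        have := T.mul_mem (T.mul_mem (T.inv_mem z.2) (hST hs)) z.2
        rwa [show (z : G)⁻¹ * ((z : G) * s * (z : G)⁻¹) * z = s by group] at this
      exact ((mem_normalizer_iff.mp hz) ⟨s, hsT⟩).mpr hs
  have hyA : cj y A = A := cj_eq_of_mem_normalizer (hTM' hyT)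
  have hyV : cj y V ≠ V := by
    intro e
    apply hyS
    have := hmax (S ⊔ zpowers y) (hT2.to_le (sup_le hST (zpowers_le.mpr hyT))) le_sup_left
      (sup_le hSle (zpowers_le.mpr ⟨mem_normalizer_of_cj e, hTM' hyT⟩))
    rw [← this]
    exact mem_sup_right (mem_zpowers y)
  refine ⟨y, hyA, hyV, ?_⟩
  let U : Subgroup G := cj y V
  have hU : ∃ x, U = cj x V := ⟨y, rfl⟩
  have hUS : U ≤ S := by
    rintro _ ⟨v, hv, rfl⟩
    exact (mem_normalizer_iff.mp hyN v).mp (hDS (hDV hv))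
  have hnU : ∀ s ∈ S, ∀ u ∈ U, s * u * s⁻¹ ∈ U := by
    intro s hs u hu
    rw [mem_cj] at hu ⊢
    have hs' : y⁻¹ * s * y ∈ S := by
      rw [mem_normalizer_iff.mp hyN, show y * (y⁻¹ * s * y) * y⁻¹ = s by group]
      exact hs
    rw [show y⁻¹ * (s * u * s⁻¹) * y = (y⁻¹ * s * y) * (y⁻¹ * u * y) * (y⁻¹ * s * y)⁻¹ by group]
    exact h.conj_V (hSle hs').1 hu
  have hUA : ∀ u ∈ U, ∀ a ∈ A, u * a = a * u := by
    intro u hu a ha
    rw [mem_cj] at hu
    have ha' : y⁻¹ * a * y ∈ A := by rw [← mem_cj, hyA]; exact ha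
    have e := hA.commute_V h ha' hu
    calc u * a = y * ((y⁻¹ * u * y) * (y⁻¹ * a * y)) * y⁻¹ := by group
      _ = y * ((y⁻¹ * a * y) * (y⁻¹ * u * y)) * y⁻¹ := by rw [e]
      _ = _ := by group
  have hUM : ∀ u ∈ U, u ∈ M := fun u hu => (hSle (hUS hu)).1
  have hUV : ∀ u ∈ U, ∀ v ∈ V, u * v = v * u :=
    h.commute_of_normalizes hU ⟨1, (cj_one V).symm⟩ hUM
  have hsU : ∀ d ∈ D, ∀ u ∈ U, d * u * d⁻¹ * u⁻¹ ∈ PP V Q ∧ d * u * d⁻¹ * u⁻¹ ∈ U := by
    intro d hd u hu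
    refine ⟨?_, U.mul_mem (hnU d (hDS hd) u hu) (U.inv_mem hu)⟩
    rw [show d * u * d⁻¹ * u⁻¹ = d * (u * d⁻¹ * u⁻¹) by group]
    exact mul_mem hd.1 (h.PP_conj (hUM u hu) (inv_mem hd.1))
  by_contra hnot
  -- `U` meets `P` trivially
  have hUP : ∀ u ∈ U, u ∈ PP V Q → u = 1 := by
    intro u hu hup
    by_contra hu1
    apply hnot
    refine member_le h hA hU hu (center_D h hA hup (hUA u hu) fun d hd hda => ?_) hu1
    have hdD : d ∈ D := ⟨hd, mem_normalizer_of_commutes hda⟩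
    have : br d u = 1 := h.eq_one_of_inter hU ⟨1, (cj_one V).symm⟩ hyV (hsU d hdD u hu).2
      (h.br_mem hd hup)
    exact (br_eq_one_iff.mp this).symm
  -- `U` acts trivially on `P / V`
  have htriv : ∀ u ∈ U, ∀ x ∈ PP V Q, u * x * u⁻¹ * x⁻¹ ∈ V := by
    intro u hu x hx
    have hux := h.PP_conj (hUM u hu) hx
    let t := x⁻¹ * (u * x * u⁻¹)
    have htP : t ∈ PP V Q := mul_mem (inv_mem hx) hux
    have hud : ∀ d ∈ D, u * d * u⁻¹ = d := by
      intro d hd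
      have := hUP _ (hsU d hd u hu).2 (hsU d hd u hu).1
      rw [mul_inv_eq_one, mul_inv_eq_iff_eq_mul] at this
      rw [← this]; group
    have huv : ∀ v ∈ V, u * v * u⁻¹ = v := fun v hv => by rw [hUV u hu v hv]; group
    have htd : ∀ d ∈ D, t * d = d * t := by
      intro d hd
      apply br_eq_one_iff.mp
      rw [h.br_mul_left (inv_mem hx) hux hd.1]
      have e1 : br (u * x * u⁻¹) d = br x d := by
        calc br (u * x * u⁻¹) d = br (u * x * u⁻¹) (u * d * u⁻¹) := by rw [hud d hd]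
          _ = u * br x d * u⁻¹ := by rw [br, br]; group
          _ = br x d := huv _ (h.br_mem hx hd.1)
      rw [e1, ← h.br_mul_left (inv_mem hx) hx hd.1, inv_mul_cancel, br_eq_one_iff, one_mul, mul_one]
    have htA : ∀ a ∈ A, t * a = a * t := by
      intro a ha
      refine htd a ⟨hA.le_PP h ha, ?_⟩
      exact le_normalizer ha
    have htW := center_D h hA htP htA fun d hd hda =>
      htd d ⟨hd, mem_normalizer_of_commutes hda⟩
    obtain ⟨v, hv, a, ha, hta⟩ := (mem_WW h hA).mp htW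
    have hsqt : (v * a) * (v * a) = 1 := by
      calc (v * a) * (v * a) = v * (a * v) * a := by group
        _ = v * (v * a) * a := by rw [hA.commute_V h ha hv]
        _ = (v * v) * (a * a) := by group
        _ = 1 := by rw [h.sq v hv, hA.sq h ha, one_mul]
    have hxt : u * x * u⁻¹ = x * (v * a) := by rw [← hta]; show _ = x * (x⁻¹ * _); group
    have hsq2 : (x * (v * a)) * (x * (v * a)) = x * x := by
      rw [← hxt]
      calc u * x * u⁻¹ * (u * x * u⁻¹) = u * (x * x) * u⁻¹ := by group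
        _ = x * x := huv _ (h.sq_mem hx)
    have hcomm : x * (v * a) = (v * a) * x := by
      have e1 : (v * a) * x * (v * a) = x := by
        calc (v * a) * x * (v * a) = x⁻¹ * ((x * (v * a)) * (x * (v * a))) := by group
          _ = x := by rw [hsq2]; group
      calc x * (v * a) = ((v * a) * x * (v * a)) * (v * a) := by rw [e1]
        _ = (v * a) * x * ((v * a) * (v * a)) := by group
        _ = (v * a) * x := by rw [hsqt, mul_one]
    rw [show u * x * u⁻¹ * x⁻¹ = x * (v * a) * x⁻¹ by rw [hxt], hcomm]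
    rw [mul_inv_cancel_right]
    rcases eq_or_ne a 1 with rfl | ha1
    · rwa [mul_one]
    · exfalso
      have hxa : x * a = a * x := by
        have e := hcomm
        rw [← mul_assoc, ← h.V_central hx hv, mul_assoc, mul_assoc] at e
        exact mul_left_cancel e
      have hxc := commute_all h hA hx ha ha1 hxa
      have hxD : x ∈ D := ⟨hx, mem_normalizer_of_commutes hxc⟩
      have e3 := hud x hxD
      rw [hxt] at e3
      have : v * a = 1 := mul_left_cancel (a := x) (e3.trans (mul_one x).symm)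
      have h4 := WW_unique h hA hv V.one_mem ha A.one_mem (this.trans (one_mul (1 : G)).symm)
      exact ha1 h4.2
  -- the stabilizer of the chain is a normal 2-subgroup of `N(V)`
  let C : Subgroup G :=
    { carrier := {m | m ∈ M ∧ (∀ v ∈ V, m * v = v * m) ∧ ∀ x ∈ PP V Q, m * x * m⁻¹ * x⁻¹ ∈ V}
      one_mem' := ⟨one_mem _, fun v _ => by simp, fun x _ => by simp [V.one_mem]⟩
      mul_mem' := fun {m n} hm hn => by
        refine ⟨mul_mem hm.1 hn.1, fun v hv => ?_, fun x hx => ?_⟩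
        · rw [mul_assoc, hn.2.1 v hv, ← mul_assoc, hm.2.1 v hv, mul_assoc]
        · rw [show m * n * x * (m * n)⁻¹ * x⁻¹ =
            (m * (n * x * n⁻¹) * m⁻¹ * (n * x * n⁻¹)⁻¹) * (n * x * n⁻¹ * x⁻¹) by group]
          exact V.mul_mem (hm.2.2 _ (h.PP_conj hn.1 hx)) (hn.2.2 x hx)
      inv_mem' := fun {m} hm => by
        refine ⟨inv_mem hm.1, fun v hv => ?_, fun x hx => ?_⟩
        · calc m⁻¹ * v = m⁻¹ * (v * m) * m⁻¹ := by group
            _ = m⁻¹ * (m * v) * m⁻¹ := by rw [hm.2.1 v hv]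
            _ = v * m⁻¹ := by group
        · have h1 := hm.2.2 _ (h.PP_conj (inv_mem hm.1) hx)
          rw [inv_inv] at h1
          rw [show m⁻¹ * x * m⁻¹⁻¹ * x⁻¹ = (m * (m⁻¹ * x * m) * m⁻¹ * (m⁻¹ * x * m)⁻¹)⁻¹ by group]
          exact V.inv_mem h1 }
  have hC2 : IsPGroup 2 C := by
    intro ⟨c, hc⟩
    obtain ⟨k, r, hr, hk⟩ := Nat.exists_eq_two_pow_mul_odd (n := orderOf c) (orderOf_pos c).ne'
    refine ⟨k, ?_⟩
    apply Subtype.ext
    show c ^ 2 ^ k = 1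
    have hcm : c ^ 2 ^ k ∈ C := C.pow_mem hc _
    have hmr : (c ^ 2 ^ k) ^ r = 1 := by rw [← pow_mul, ← hk, pow_orderOf_eq_one]
    generalize c ^ 2 ^ k = m at hcm hmr
    obtain ⟨hmM, hmV, hmP⟩ := hcm
    -- elements of odd order in the stabilizer are trivial
    have step : ∀ (w z : G), z ∈ V → m * w * m⁻¹ = z * w → m * z = z * m → z = 1 := by
      intro w z hz e ez
      have hpow : ∀ j : ℕ, m ^ j * w * (m ^ j)⁻¹ = z ^ j * w := by
        intro j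
        induction j with
        | zero => simp
        | succ j ih =>
          calc m ^ (j + 1) * w * (m ^ (j + 1))⁻¹ = m * (m ^ j * w * (m ^ j)⁻¹) * m⁻¹ := by
                rw [pow_succ' m j]; group
            _ = m * (z ^ j * w) * m⁻¹ := by rw [ih]
            _ = (m * z ^ j) * w * m⁻¹ := by group
            _ = (z ^ j * m) * w * m⁻¹ := by rw [((show Commute m z from ez).pow_right j).eq]
            _ = z ^ j * (m * w * m⁻¹) := by group
            _ = _ := by rw [e, pow_succ z j]; group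
      have hr' := hpow r
      rw [hmr] at hr'
      simp only [one_mul, inv_one, mul_one, right_eq_mul] at hr'
      obtain ⟨s, rfl⟩ := hr
      rw [pow_succ, pow_mul, pow_two, h.sq z hz, one_pow, one_mul] at hr'
      exact hr'
    have hmP' : ∀ x ∈ PP V Q, m * x = x * m := by
      intro x hx
      have h1 := step x _ (hmP x hx) (by group) (hmV _ (hmP x hx))
      rw [mul_inv_eq_one, mul_inv_eq_iff_eq_mul] at h1
      exact h1
    have hmQ : ∀ w ∈ Q, m * w = w * m := by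
      intro w hw
      let c := m * w * m⁻¹ * w⁻¹
      have hcQ : c ∈ Q := Q.mul_mem (h.q_conj m hmM w hw) (Q.inv_mem hw)
      have hcP : ∀ x ∈ PP V Q, x * c = c * x := by
        intro x hx
        have hx' := h.PP_conj (inv_mem (h.q_le hw)) hx
        rw [inv_inv] at hx'
        have e1 := hmP' _ hx'
        have e2 : (m * w * m⁻¹) * (w⁻¹ * x * w) * (m * w * m⁻¹)⁻¹ = x := by
          calc (m * w * m⁻¹) * (w⁻¹ * x * w) * (m * w * m⁻¹)⁻¹
              = m * w * (m⁻¹ * ((w⁻¹ * x * w) * m)) * w⁻¹ * m⁻¹ := by group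
            _ = m * w * (m⁻¹ * (m * (w⁻¹ * x * w))) * w⁻¹ * m⁻¹ := by rw [e1]
            _ = m * x * m⁻¹ := by group
            _ = x := by rw [hmP' x hx]; group
        calc x * c = ((m * w * m⁻¹) * (w⁻¹ * x * w) * (m * w * m⁻¹)⁻¹) * c := by rw [e2]
          _ = c * x := by show _ * (m * w * m⁻¹ * w⁻¹) = m * w * m⁻¹ * w⁻¹ * x; group
      have hcPP : c ∈ PP V Q := mem_PP.mpr ⟨hcQ, fun v hv => hcP v (h.V_le_PP hv)⟩
      have hcV : c ∈ V := h.center_PP_le hcPP hcP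
      have h1 := step w c hcV (show m * w * m⁻¹ = (m * w * m⁻¹ * w⁻¹) * w by group) (hmV c hcV)
      have h2 : m * w * m⁻¹ * w⁻¹ = 1 := h1
      rw [mul_inv_eq_one, mul_inv_eq_iff_eq_mul] at h2
      exact h2
    have hmQ' := h.cent_q m hmM hmQ
    obtain ⟨j, hj⟩ := h.q_2 ⟨m, hmQ'⟩
    have hj' : m ^ 2 ^ j = 1 := by simpa using congrArg Subtype.val hj
    have hd : orderOf m ∣ 1 := by
      have hcop : Nat.Coprime (2 ^ j) r := Nat.Coprime.pow_left j (Nat.coprime_two_left.mpr hr)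
      rw [← hcop]
      exact Nat.dvd_gcd (orderOf_dvd_of_pow_eq_one hj') (orderOf_dvd_of_pow_eq_one hmr)
    exact orderOf_eq_one_iff.mp (Nat.dvd_one.mp hd)
  have hCn : ∀ m ∈ normalizer (V : Set G), ∀ c ∈ C, m * c * m⁻¹ ∈ C := by
    intro m hm c hc
    refine ⟨mul_mem (mul_mem hm hc.1) (inv_mem hm), fun v hv => ?_, fun x hx => ?_⟩
    · have hv' := h.conj_V (inv_mem hm) hv
      rw [inv_inv] at hv'
      calc m * c * m⁻¹ * v = m * (c * (m⁻¹ * v * m)) * m⁻¹ := by group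
        _ = m * ((m⁻¹ * v * m) * c) * m⁻¹ := by rw [hc.2.1 _ hv']
        _ = _ := by group
    · have hx' := h.PP_conj (inv_mem hm) hx
      rw [inv_inv] at hx'
      rw [show m * c * m⁻¹ * x * (m * c * m⁻¹)⁻¹ * x⁻¹ =
        m * (c * (m⁻¹ * x * m) * c⁻¹ * (m⁻¹ * x * m)⁻¹) * m⁻¹ by group]
      exact h.conj_V hm (hc.2.2 _ hx')
  obtain ⟨v, hv, hv1⟩ : ∃ v ∈ V, v ≠ 1 := by
    by_contra hc
    push Not at hc
    exact h.nontriv ((Subgroup.eq_bot_iff_forall V).mpr hc)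
  have hu : y * v * y⁻¹ ∈ U := conj_mem_cj hv
  have huC : y * v * y⁻¹ ∈ C := ⟨hUM _ hu, fun w hw => hUV _ hu w hw, htriv _ hu⟩
  have huQ := h.q_max C (fun c hc => hc.1) hC2 hCn huC
  have := hUP _ hu (mem_PP.mpr ⟨huQ, fun w hw => (hUV _ hu w hw).symm⟩)
  exact hv1 (by simpa using this)

include h in
/-- An element interchanging `V` and `A`. -/
theorem exists_swap (hA : Rad V Q A) :
    ∃ s : G, cj s V = A ∧ cj s A = V ∧ cj s (WW V A) = WW V A := by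
  obtain ⟨y, hyA, hyV, hyW⟩ := exists_move h hA
  obtain ⟨w, hw, hw1⟩ : ∃ w ∈ cj y V, w ≠ 1 := by
    by_contra hc
    push Not at hc
    apply h.nontriv
    rw [← Subgroup.card_eq_one, ← card_cj y V, Subgroup.card_eq_one, Subgroup.eq_bot_iff_forall]
    exact hc
  obtain ⟨b, hb, eb⟩ := (member h hA ⟨y, rfl⟩ hw (hyW hw) hw1).resolve_left hyV
  have hyWW : cj y (WW V A) = WW V A := by
    refine Subgroup.eq_of_le_of_card_ge ?_ (le_of_eq (card_cj _ _).symm)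
    rw [WW, cj, Subgroup.map_sup]
    exact sup_le hyW (hyA.le.trans le_sup_right)
  let k := b⁻¹ * y
  have hkW : cj k (WW V A) = WW V A := by
    rw [← cj_cj, hyWW]; exact cj_WW_of_PP h hA (inv_mem hb)
  have hkV : cj k V = A := by rw [← cj_cj, eb, cj_cj, inv_mul_cancel, cj_one]
  have hU : cj k⁻¹ V ≠ V := by
    intro e
    have h2 := cj_inv_eq e
    rw [inv_inv] at h2
    exact hA.ne (hkV.symm.trans h2)
  have hUW : cj k⁻¹ V ≤ WW V A := by
    rw [← cj_inv_eq hkW]; exact cj_mono _ le_sup_left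
  obtain ⟨u, hu, hu1⟩ : ∃ u ∈ cj k⁻¹ V, u ≠ 1 := by
    by_contra hc
    push Not at hc
    apply h.nontriv
    rw [← Subgroup.card_eq_one, ← card_cj k⁻¹ V, Subgroup.card_eq_one, Subgroup.eq_bot_iff_forall]
    exact hc
  obtain ⟨p, hp, ep⟩ := (member h hA ⟨k⁻¹, rfl⟩ hu (hUW hu) hu1).resolve_left hU
  refine ⟨k * p, ?_, ?_, ?_⟩
  · rw [← cj_cj, cj_eq_of_mem_normalizer (h.PP_le hp), hkV]
  · rw [← cj_cj, ← ep, cj_cj, mul_inv_cancel, cj_one]
  · rw [← cj_cj, cj_WW_of_PP h hA hp, hkW]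

include h in
/-- Translations fixing `A`. -/
theorem translate' (hA : Rad V Q A) {s : G} (hsV : cj s V = A) (hsA : cj s A = V) {v a : G}
    (hv : v ∈ V) (hv1 : v ≠ 1) (ha : a ∈ A) :
    ∃ x ∈ cj s (PP V Q), x * v * x⁻¹ = v * a ∧ ∀ a' ∈ A, x * a' * x⁻¹ = a' := by
  obtain ⟨a₁, ha₁, rfl⟩ : ∃ a₁ ∈ A, s * a₁ * s⁻¹ = v := by
    rw [← hsA] at hv
    obtain ⟨a₁, ha₁, e⟩ := hv
    exact ⟨a₁, ha₁, e⟩
  obtain ⟨v₁, hv₁, rfl⟩ : ∃ v₁ ∈ V, s * v₁ * s⁻¹ = a := by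
    rw [← hsV] at ha
    obtain ⟨v₁, hv₁, e⟩ := ha
    exact ⟨v₁, hv₁, e⟩
  obtain ⟨x, hx, e⟩ := translate h hA ha₁ (fun e1 => hv1 (by rw [e1]; group)) hv₁
  refine ⟨s * x * s⁻¹, conj_mem_cj hx, ?_, ?_⟩
  · calc s * x * s⁻¹ * (s * a₁ * s⁻¹) * (s * x * s⁻¹)⁻¹ = s * (x * a₁ * x⁻¹) * s⁻¹ := by group
      _ = s * (v₁ * a₁) * s⁻¹ := by rw [e]
      _ = s * (a₁ * v₁) * s⁻¹ := by rw [hA.commute_V h ha₁ hv₁]
      _ = _ := by group
  · intro a' ha'
    rw [← hsV] at ha'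
    obtain ⟨v', hv', rfl⟩ := ha'
    show s * x * s⁻¹ * (s * v' * s⁻¹) * (s * x * s⁻¹)⁻¹ = s * v' * s⁻¹
    calc s * x * s⁻¹ * (s * v' * s⁻¹) * (s * x * s⁻¹)⁻¹ = s * ((x * v') * x⁻¹) * s⁻¹ := by group
      _ = s * ((v' * x) * x⁻¹) * s⁻¹ := by rw [h.V_central hx hv']
      _ = _ := by group

include h in
/-- `N(V)` is transitive on `V#`. -/
theorem transitive (hA : Rad V Q A) {v w : G} (hv : v ∈ V) (hv1 : v ≠ 1) (hw : w ∈ V) (hw1 : w ≠ 1) :
    ∃ m ∈ normalizer (V : Set G), m * v * m⁻¹ = w := by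
  obtain ⟨s, hsV, hsA, -⟩ := exists_swap h hA
  obtain ⟨a, ha, ha1⟩ := exists_ne_one' h hA
  obtain ⟨y₁, -, e₁, -⟩ := translate' h hA hsV hsA hv hv1 ha
  obtain ⟨y₂, -, e₂, -⟩ := translate' h hA hsV hsA hw hw1 ha
  obtain ⟨x, hx, e⟩ := translate h hA ha ha1 (V.mul_mem hv hw)
  have e3 : x * (v * a) * x⁻¹ = w * a := by
    calc x * (v * a) * x⁻¹ = (x * v) * a * x⁻¹ := by group
      _ = (v * x) * a * x⁻¹ := by rw [h.V_central hx hv]
      _ = v * (x * a * x⁻¹) := by group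
      _ = v * (v * w * a) := by rw [e]
      _ = (v * v) * (w * a) := by group
      _ = w * a := by rw [h.sq v hv, one_mul]
  have eq : (y₂⁻¹ * x * y₁) * v * (y₂⁻¹ * x * y₁)⁻¹ = w := by
    calc (y₂⁻¹ * x * y₁) * v * (y₂⁻¹ * x * y₁)⁻¹ = y₂⁻¹ * (x * (y₁ * v * y₁⁻¹) * x⁻¹) * y₂ := by group
      _ = y₂⁻¹ * (w * a) * y₂ := by rw [e₁, e3]
      _ = w := by rw [← e₂]; group
  exact ⟨_, h.ti _ v hv hv1 (by rw [eq]; exact hw), eq⟩

include h in
/-- `Q` centralizes `V`. -/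
theorem Q_centralizes (hA : Rad V Q A) : PP V Q = Q := by
  haveI := Fact.mk Nat.prime_two
  let Vq : Subgroup ↥Q := V.subgroupOf Q
  haveI : Vq.Normal := ⟨fun n hn g => h.conj_V (h.q_le g.2) hn⟩
  have hne : Vq ≠ ⊥ := by
    intro e
    apply h.nontriv
    rw [Subgroup.eq_bot_iff_forall]
    intro v hv
    have : (⟨v, h.V_le_Q hv⟩ : ↥Q) ∈ Vq := hv
    rw [e, Subgroup.mem_bot] at this
    exact congrArg Subtype.val this
  obtain ⟨z, hz, hz1⟩ : ∃ z ∈ Vq ⊓ Subgroup.center ↥Q, z ≠ 1 := by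
    by_contra hc
    push Not at hc
    exact Cfsg.Agent.PGroup.inf_center_ne_bot (p := 2) h.q_2 Vq hne ((Subgroup.eq_bot_iff_forall _).mpr hc)
  refine le_antisymm inf_le_left fun w hw => mem_PP.mpr ⟨hw, fun v hv => ?_⟩
  rcases eq_or_ne v 1 with rfl | hv1
  · simp
  obtain ⟨m, hm, rfl⟩ := transitive h hA (v := (z : G)) hz.1 (fun e => hz1 (Subtype.ext e)) hv hv1
  have hw' := h.q_conj m⁻¹ (inv_mem hm) w hw
  rw [inv_inv] at hw'
  have e := congrArg Subtype.val (Subgroup.mem_center_iff.mp hz.2 ⟨_, hw'⟩)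
  simp only [Subgroup.coe_mul] at e
  calc m * (z : G) * m⁻¹ * w = m * ((z : G) * (m⁻¹ * w * m)) * m⁻¹ := by group
    _ = m * ((m⁻¹ * w * m) * (z : G)) * m⁻¹ := by rw [e]
    _ = _ := by group

include h in
/-- A translation fixing `A` is determined by one value. -/
theorem lower_eq (hA : Rad V Q A) (hB : Rad V Q B) (hn : NC A B) {s x b a₀ : G}
    (hsV : cj s V = A) (hsA : cj s A = V) (hx : x ∈ cj s (PP V Q)) (hb : b ∈ B) (hb1 : b ≠ 1)
    (ha₀ : a₀ ∈ A) (ha₀1 : a₀ ≠ 1) (e : x * br b a₀ * x⁻¹ = br b a₀ * a₀) :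
    ∀ a ∈ A, x * br b a * x⁻¹ = br b a * a := by
  intro a ha
  have hxW : ∀ t ∈ V, x * t * x⁻¹ ∈ cj b A := by
    obtain ⟨z, hz⟩ := (hA.conj_rad h (h.PP_le (hB.le_PP h hb))).conj
    have hw : br b a₀ * a₀ ∈ cj b A := by rw [← h.conj_eq]; exact conj_mem_cj ha₀
    have : cj x V = cj b A := by
      rw [hz] at hw ⊢
      refine h.eq_of_shared ?_ hw ?_
      · rw [← e]; exact conj_mem_cj (h.br_mem (hB.le_PP h hb) (hA.le_PP h ha₀))
      · intro e1
        exact ha₀1 (WW_unique h hA (h.br_mem (hB.le_PP h hb) (hA.le_PP h ha₀)) V.one_mem ha₀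
          A.one_mem (e1.trans (one_mul (1 : G)).symm)).2
    intro t ht'
    rw [← this]; exact conj_mem_cj ht'
  obtain ⟨a₂, ha₂, e2⟩ := hxW _ (h.br_mem (hB.le_PP h hb) (hA.le_PP h ha))
  have e2' : b * a₂ * b⁻¹ = x * br b a * x⁻¹ := e2
  -- the `V`-coordinate of `x t x⁻¹` is `t`
  obtain ⟨x₀, hx₀, rfl⟩ := hx
  have htA : ∀ t ∈ V, ∃ a₃ ∈ A, (s * x₀ * s⁻¹) * t * (s * x₀ * s⁻¹)⁻¹ = t * a₃ := by
    intro t ht'
    rw [← hsA] at ht'
    obtain ⟨a₁, ha₁, rfl⟩ := ht'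
    refine ⟨s * br x₀ a₁ * s⁻¹, ?_, ?_⟩
    · rw [← hsV]; exact conj_mem_cj (h.br_mem hx₀ (hA.le_PP h ha₁))
    · show _ = (s * a₁ * s⁻¹) * _
      calc s * x₀ * s⁻¹ * (s * a₁ * s⁻¹) * (s * x₀ * s⁻¹)⁻¹ = s * (x₀ * a₁ * x₀⁻¹) * s⁻¹ := by group
        _ = s * (br x₀ a₁ * a₁) * s⁻¹ := by rw [h.conj_eq (x := x₀) (y := a₁)]
        _ = s * (a₁ * br x₀ a₁) * s⁻¹ := by rw [hA.commute_V h ha₁ (h.br_mem hx₀ (hA.le_PP h ha₁))]
        _ = _ := by group
  obtain ⟨a₃, ha₃, e3⟩ := htA _ (h.br_mem (hB.le_PP h hb) (hA.le_PP h ha))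
  have e4 : br b a₂ * a₂ = br b a * a₃ := by
    rw [← h.conj_eq, e2']; exact e3
  obtain ⟨e5, e6⟩ := WW_unique h hA (h.br_mem (hB.le_PP h hb) (hA.le_PP h ha₂))
    (h.br_mem (hB.le_PP h hb) (hA.le_PP h ha)) ha₂ ha₃ e4
  have e7 : a₂ = a := br_inj h hB hA hn.symm hb hb1 ha₂ ha (by
    rw [h.br_symm (hB.le_PP h hb) (hA.le_PP h ha₂), h.br_symm (hB.le_PP h hb) (hA.le_PP h ha)]
    exact e5)
  show s * x₀ * s⁻¹ * br b a * (s * x₀ * s⁻¹)⁻¹ = br b a * a
  rw [e3, ← e6, e7]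

include h in
/-- Inverse translations add. -/
theorem inv_add (hA : Rad V Q A) (hB : Rad V Q B) (hn : NC A B) {b c : G} (hb : b ∈ B) (hb1 : b ≠ 1)
    (hc : c ∈ B) (hc1 : c ≠ 1) (hbc : b ≠ c) :
    ∃ d ∈ B, ∀ a ∈ A, ∀ a' ∈ A, br b a = br c a' → br d (a * a') = br b a := by
  obtain ⟨s, hsV, hsA, -⟩ := exists_swap h hA
  have key : ∀ b ∈ B, b ≠ 1 → ∃ x, (∀ a ∈ A, x * br b a * x⁻¹ = br b a * a) ∧ ∀ a' ∈ A, x * a' * x⁻¹ = a' := by
    intro b hb hb1
    obtain ⟨a₀, ha₀, ha₀1⟩ := exists_ne_one' h hA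
    have ht : br b a₀ ≠ 1 := fun e => B_not_commute h hA hB hn ha₀ hb ha₀1 hb1 (br_eq_one_iff.mp e)
    obtain ⟨x, hx, e, hfix⟩ := translate' h hA hsV hsA (h.br_mem (hB.le_PP h hb) (hA.le_PP h ha₀)) ht ha₀
    exact ⟨x, lower_eq h hA hB hn hsV hsA hx hb hb1 ha₀ ha₀1 e, hfix⟩
  obtain ⟨x, hx, -⟩ := key b hb hb1
  obtain ⟨x', hx', hfix'⟩ := key c hc hc1
  have hmove : ∀ a ∈ A, ∀ a' ∈ A, br b a = br c a' →
      br b a * (a * a') ∈ cj (x' * x) V := by
    intro a ha a' ha' e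
    refine ⟨br b a, h.br_mem (hB.le_PP h hb) (hA.le_PP h ha), ?_⟩
    show x' * x * br b a * (x' * x)⁻¹ = _
    calc x' * x * br b a * (x' * x)⁻¹ = x' * (x * br b a * x⁻¹) * x'⁻¹ := by group
      _ = x' * (br b a * a) * x'⁻¹ := by rw [hx a ha]
      _ = (x' * br c a' * x'⁻¹) * (x' * a * x'⁻¹) := by rw [e]; group
      _ = br c a' * a' * a := by rw [hx' a' ha', hfix' a ha]
      _ = _ := by rw [e, mul_assoc, hA.comm h ha ha']
  obtain ⟨a₀, ha₀, ha₀1⟩ := exists_ne_one' h hA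
  obtain ⟨a₀', ha₀', e₀⟩ := br_surj h hB hA hn.symm hc hc1 (h.br_mem (hB.le_PP h hb) (hA.le_PP h ha₀))
  rw [← h.br_symm (hA.le_PP h ha₀') (hB.le_PP h hc)] at e₀
  have hne : a₀ * a₀' ≠ 1 := by
    intro e1
    have : a₀' = a₀ := by rw [← inv_eq_of_mul_eq_one_right e1, inv_eq_of_mul_eq_one_right (hA.sq h ha₀)]
    rw [this] at e₀
    exact hbc (br_inj h hA hB hn ha₀ ha₀1 hb hc e₀.symm)
  obtain ⟨p, hp, ep⟩ : ∃ p ∈ PP V Q, cj (x' * x) V = cj p A := by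
    refine (member h hA ⟨x' * x, rfl⟩ (hmove a₀ ha₀ a₀' ha₀' e₀.symm) ((mem_WW h hA).mpr
      ⟨_, h.br_mem (hB.le_PP h hb) (hA.le_PP h ha₀), _, A.mul_mem ha₀ ha₀', rfl⟩) ?_).resolve_left ?_
    · intro e1
      exact hne (WW_unique h hA (h.br_mem (hB.le_PP h hb) (hA.le_PP h ha₀)) V.one_mem
        (A.mul_mem ha₀ ha₀') A.one_mem (e1.trans (one_mul (1 : G)).symm)).2
    · intro e1
      have hm := hmove a₀ ha₀ a₀' ha₀' e₀.symm
      rw [e1] at hm
      exact hne (hA.inter h (A.mul_mem ha₀ ha₀') (by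
        have := V.mul_mem (V.inv_mem (h.br_mem (hB.le_PP h hb) (hA.le_PP h ha₀))) hm
        rwa [inv_mul_cancel_left] at this))
  obtain ⟨d, hd, hdp⟩ := exists_B_part h hA hB hn hp
  refine ⟨d, hd, fun a ha a' ha' e => ?_⟩
  have hm := hmove a ha a' ha' e
  rw [ep] at hm
  obtain ⟨a₄, ha₄, e4⟩ := hm
  have e4' : p * a₄ * p⁻¹ = br b a * (a * a') := e4
  rw [h.conj_eq] at e4'
  obtain ⟨e5, e6⟩ := WW_unique h hA (h.br_mem hp (hA.le_PP h ha₄)) (h.br_mem (hB.le_PP h hb) (hA.le_PP h ha))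
    ha₄ (A.mul_mem ha ha') e4'
  rw [← (hdp _ (A.mul_mem ha ha')).1, ← e6, e5]

end Cfsg.Agent.Classif.TIRadical
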