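import Mathlib
import Cfsg.Agent.Classif.SemifieldChar2
import Cfsg.Agent.Classif.TIRadical
import Cfsg.Agent.Linear.GLTwo

/-!
In the TI radical situation the translations of `W = V A` form a field and generate `SL(2, |V|)`.
-/

set_option autoImplicit false
set_option linter.all false

namespace Cfsg.Agent.Classif.TIRadical

open Subgroup
open scoped MatrixGroups

variable {G : Type*} [Group G] [Finite G] {V Q A B : Subgroup G} (h : Hyp V Q)

include h in
theorem br_one_left (hA : Rad V Q A) {a : G} : br (1 : G) a = 1 := by simp [br]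

include h in
/-- Left multiplications are closed under inversion. -/
theorem inverse_closed (hA : Rad V Q A) (hB : Rad V Q B) (hn : NC A B) {a₁ b₁ : G}
    (ha₁ : a₁ ∈ A) (ha₁1 : a₁ ≠ 1) (hb₁ : b₁ ∈ B) (hb₁1 : b₁ ≠ 1) (bb aa : G → G)
    (hbb : ∀ v ∈ V, bb v ∈ B ∧ br (bb v) a₁ = v) (haa : ∀ v ∈ V, aa v ∈ A ∧ br b₁ (aa v) = v)
    {x : G} (hx : x ∈ V) (hx1 : x ≠ 1) :
    ∃ y ∈ V, ∀ w ∈ V, br (bb y) (aa (br (bb x) (aa w))) = w := by
  have bbP : ∀ v ∈ V, bb v ∈ PP V Q := fun v hv => hB.le_PP h (hbb v hv).1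
  have aaP : ∀ v ∈ V, aa v ∈ PP V Q := fun v hv => hA.le_PP h (haa v hv).1
  have b₁P := hB.le_PP h hb₁
  have a₁P := hA.le_PP h ha₁
  have bbmul : ∀ v ∈ V, ∀ v' ∈ V, bb (v * v') = bb v * bb v' := by
    intro v hv v' hv'
    refine br_inj h hA hB hn ha₁ ha₁1 (hbb _ (V.mul_mem hv hv')).1 (B.mul_mem (hbb v hv).1 (hbb v' hv').1) ?_
    rw [h.br_mul_left (bbP v hv) (bbP v' hv') a₁P, (hbb _ (V.mul_mem hv hv')).2, (hbb v hv).2, (hbb v' hv').2]
  let u := br b₁ a₁
  have hu : u ∈ V := h.br_mem b₁P a₁P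
  have bbu : bb u = b₁ := br_inj h hA hB hn ha₁ ha₁1 (hbb u hu).1 hb₁ (hbb u hu).2
  rcases eq_or_ne x u with rfl | hxu
  · refine ⟨u, hu, fun w hw => ?_⟩
    rw [bbu, (haa w hw).2, (haa w hw).2]
  -- write `x = u v`
  let v := u * x
  have hv : v ∈ V := V.mul_mem hu hx
  have hbv : bb v = b₁ * bb x := by rw [bbmul u hu x hx, bbu]
  have hbv1 : bb v ≠ 1 := by
    intro e
    have e2 := (hbb v hv).2
    rw [e, br_one_left h hA] at e2
    exact hxu ((inv_eq_of_mul_eq_one_right e2.symm).symm.trans (h.inv_eq hu))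
  have hbne : bb v ≠ b₁ := by
    intro e
    have e2 := (hbb x hx).2
    rw [show bb x = 1 by rw [hbv] at e; simpa using e, br_one_left h hA] at e2
    exact hx1 e2.symm
  obtain ⟨d, hd, hdd⟩ := inv_add h hA hB hn (hbb v hv).1 hbv1 hb₁ hb₁1 hbne
  have hdv : br d a₁ ∈ V := h.br_mem (hB.le_PP h hd) a₁P
  have hbd : bb (br d a₁) = d := br_inj h hA hB hn ha₁ ha₁1 (hbb _ hdv).1 hd (hbb _ hdv).2
  refine ⟨br d a₁ * u, V.mul_mem hdv hu, fun w hw => ?_⟩
  have hxw : br (bb x) (aa w) ∈ V := h.br_mem (bbP x hx) (aaP w hw)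
  have hvw : br (bb v) (aa w) ∈ V := h.br_mem (bbP v hv) (aaP w hw)
  have e1 := hdd (aa w) (haa w hw).1 (aa (br (bb v) (aa w))) (haa _ hvw).1 (haa _ hvw).2.symm
  have evw : br (bb v) (aa w) = w * br (bb x) (aa w) := by
    rw [hbv, h.br_mul_left b₁P (bbP x hx) (aaP w hw), (haa w hw).2]
  have e2 : aa (br (bb x) (aa w)) = aa w * aa (br (bb v) (aa w)) := by
    refine br_inj h hB hA hn.symm hb₁ hb₁1 (haa _ hxw).1 (A.mul_mem (haa w hw).1 (haa _ hvw).1) ?_
    rw [h.br_symm b₁P (aaP _ hxw), h.br_symm b₁P (mul_mem (aaP w hw) (aaP _ hvw)),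
      h.br_mul_right b₁P (aaP w hw) (aaP _ hvw), (haa _ hxw).2, (haa w hw).2, (haa _ hvw).2, evw,
      ← mul_assoc, h.sq w hw, one_mul]
  rw [bbmul _ hdv u hu, hbd, bbu, h.br_mul_left (hB.le_PP h hd) b₁P (aaP _ hxw), (haa _ hxw).2, e2, e1,
    evw, mul_assoc, h.sq _ hxw, mul_one]

include h in
/-- `⟨P, P'⟩` induces `SL(2, |V|)` on `W`. -/
theorem exists_field_iso (hA : Rad V Q A) {s : G} (hsV : cj s V = A) (hsA : cj s A = V)
    (hN : ((centralizer (WW V A : Set G)).subgroupOf (PP V Q ⊔ cj s (PP V Q))).Normal) :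
    ∃ (F : Type) (_ : Field F) (_ : Fintype F), Fintype.card F = Nat.card ↥V ∧
      Nonempty (↥(PP V Q ⊔ cj s (PP V Q)) ⧸
        (centralizer (WW V A : Set G)).subgroupOf (PP V Q ⊔ cj s (PP V Q)) ≃*
          Matrix.SpecialLinearGroup (Fin 2) F) := by
  classical
  obtain ⟨B, hB, hn⟩ := exists_partner h hA
  obtain ⟨a₁, ha₁, ha₁1⟩ := exists_ne_one' h hA
  obtain ⟨b₁, hb₁, hb₁1⟩ := exists_ne_one' h hB
  have b₁P := hB.le_PP h hb₁
  have a₁P := hA.le_PP h ha₁
  have hex1 : ∀ v, ∃ b, v ∈ V → b ∈ B ∧ br b a₁ = v := fun v => by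
    by_cases hv : v ∈ V
    · obtain ⟨b, hb, e⟩ := br_surj h hA hB hn ha₁ ha₁1 hv
      exact ⟨b, fun _ => ⟨hb, e⟩⟩
    · exact ⟨1, fun h' => absurd h' hv⟩
  have hex2 : ∀ v, ∃ a, v ∈ V → a ∈ A ∧ br b₁ a = v := fun v => by
    by_cases hv : v ∈ V
    · obtain ⟨a, ha, e⟩ := br_surj h hB hA hn.symm hb₁ hb₁1 hv
      refine ⟨a, fun _ => ⟨ha, ?_⟩⟩
      rw [← h.br_symm (hA.le_PP h ha) b₁P] at *
      exact e
    · exact ⟨1, fun h' => absurd h' hv⟩
  choose bb hbb using hex1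
  choose aa haa using hex2
  have bbP : ∀ v ∈ V, bb v ∈ PP V Q := fun v hv => hB.le_PP h (hbb v hv).1
  have aaP : ∀ v ∈ V, aa v ∈ PP V Q := fun v hv => hA.le_PP h (haa v hv).1
  have bbmul : ∀ v ∈ V, ∀ v' ∈ V, bb (v * v') = bb v * bb v' := by
    intro v hv v' hv'
    refine br_inj h hA hB hn ha₁ ha₁1 (hbb _ (V.mul_mem hv hv')).1 (B.mul_mem (hbb v hv).1 (hbb v' hv').1) ?_
    rw [h.br_mul_left (bbP v hv) (bbP v' hv') a₁P, (hbb _ (V.mul_mem hv hv')).2, (hbb v hv).2, (hbb v' hv').2]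
  have aauniq : ∀ v ∈ V, ∀ a ∈ A, br b₁ a = v → aa v = a := by
    intro v hv a ha e
    refine br_inj h hB hA hn.symm hb₁ hb₁1 (haa v hv).1 ha ?_
    rw [h.br_symm b₁P (aaP v hv), h.br_symm b₁P (hA.le_PP h ha), (haa v hv).2, e]
  have aamul : ∀ v ∈ V, ∀ v' ∈ V, aa (v * v') = aa v * aa v' := by
    intro v hv v' hv'
    refine aauniq _ (V.mul_mem hv hv') _ (A.mul_mem (haa v hv).1 (haa v' hv').1) ?_
    rw [h.br_mul_right b₁P (aaP v hv) (aaP v' hv'), (haa v hv).2, (haa v' hv').2]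
  let u : G := br b₁ a₁
  have hu : u ∈ V := h.br_mem b₁P a₁P
  have bbu : bb u = b₁ := br_inj h hA hB hn ha₁ ha₁1 (hbb u hu).1 hb₁ (hbb u hu).2
  have aau : aa u = a₁ := aauniq u hu a₁ ha₁ rfl
  letI : CommGroup ↥V :=
    { (inferInstance : Group ↥V) with
      mul_comm := fun a b => Subtype.ext (h.comm a a.2 b b.2) }
  let M := Additive ↥V
  let val : M → G := fun v => ((Additive.toMul v : ↥V) : G)
  have hval : ∀ v, val v ∈ V := fun v => (Additive.toMul v : ↥V).2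
  have valinj : Function.Injective val := fun v w e => Additive.toMul.injective (Subtype.ext e)
  let m : M →+ M →+ M := AddMonoidHom.mk'
    (fun v => AddMonoidHom.mk'
      (fun w => Additive.ofMul ⟨br (bb (val v)) (aa (val w)), h.br_mem (bbP _ (hval v)) (aaP _ (hval w))⟩)
      (fun w w' => valinj (by
        show br (bb (val v)) (aa (val w * val w')) = br (bb (val v)) (aa (val w)) * br (bb (val v)) (aa (val w'))
        rw [aamul _ (hval w) _ (hval w'), h.br_mul_right (bbP _ (hval v)) (aaP _ (hval w)) (aaP _ (hval w'))])))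
    (fun v v' => AddMonoidHom.ext fun w => valinj (by
      show br (bb (val v * val v')) (aa (val w)) = br (bb (val v)) (aa (val w)) * br (bb (val v')) (aa (val w))
      rw [bbmul _ (hval v) _ (hval v'), h.br_mul_left (bbP _ (hval v)) (bbP _ (hval v')) (aaP _ (hval w))]))
  have mval : ∀ v w, val (m v w) = br (bb (val v)) (aa (val w)) := fun v w => rfl
  let one : M := Additive.ofMul ⟨u, hu⟩
  have hne : ∀ v : M, v ≠ 0 → val v ≠ 1 := fun v hv e => hv (valinj e)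
  have hdata : Semifield.Data m one :=
    { nontriv := fun e => B_not_commute h hA hB hn ha₁ hb₁ ha₁1 hb₁1
        (br_eq_one_iff.mp (congrArg val e))
      one_mul' := fun w => valinj (by rw [mval]; show br (bb u) _ = _; rw [bbu, (haa _ (hval w)).2])
      mul_one' := fun v => valinj (by rw [mval]; show br _ (aa u) = _; rw [aau, (hbb _ (hval v)).2])
      two := fun v => valinj (h.sq _ (hval v))
      invL := fun x hx => by
        obtain ⟨y, hy, e⟩ := inverse_closed h hA hB hn ha₁ ha₁1 hb₁ hb₁1 bb aa hbb haa (hval x) (hne x hx)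
        exact ⟨Additive.ofMul ⟨y, hy⟩, AddMonoidHom.ext fun w => valinj (e _ (hval w))⟩
      invR := fun x hx => by
        obtain ⟨y, hy, e⟩ := inverse_closed h hB hA hn.symm hb₁ hb₁1 ha₁ ha₁1 aa bb
          (fun v hv => ⟨(haa v hv).1, by rw [h.br_symm b₁P (aaP v hv)]; exact (haa v hv).2⟩)
          (fun v hv => ⟨(hbb v hv).1, by rw [h.br_symm (bbP v hv) a₁P]; exact (hbb v hv).2⟩)
          (hval x) (hne x hx)
        refine ⟨Additive.ofMul ⟨y, hy⟩, AddMonoidHom.ext fun w => valinj ?_⟩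
        have hxw : br (bb (val w)) (aa (val x)) ∈ V := h.br_mem (bbP _ (hval w)) (aaP _ (hval x))
        show br (bb (br (bb (val w)) (aa (val x)))) (aa y) = val w
        have e' := e _ (hval w)
        rw [h.br_symm (bbP _ (hval w)) (aaP _ (hval x)), h.br_symm (bbP _ hxw) (aaP y hy)] at e'
        exact e' }
  obtain ⟨hcomm, hassoc⟩ := hdata.field_axioms
  letI : CommRing M :=
    { (inferInstance : AddCommGroup M) with
      mul := fun v w => m v w
      one := one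
      mul_assoc := hassoc
      one_mul := hdata.one_mul'
      mul_one := hdata.mul_one'
      mul_comm := hcomm
      left_distrib := fun a b c => map_add (m a) b c
      right_distrib := fun a b c => by show m (a + b) c = m a c + m b c; rw [map_add]; rfl
      zero_mul := fun a => by show m 0 a = 0; rw [map_zero]; rfl
      mul_zero := fun a => map_zero (m a) }
  haveI : Nontrivial M := ⟨⟨one, 0, hdata.nontriv⟩⟩
  haveI : NoZeroDivisors M := ⟨fun {a b} e => or_iff_not_imp_left.mpr fun ha => hdata.no_zero ha e⟩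
  haveI : IsDomain M := NoZeroDivisors.to_isDomain _
  haveI : Finite M := inferInstanceAs (Finite ↥V)
  letI : Field M := (Finite.isField_of_domain M).toField
  let F := { z : Fin (Nat.card M) // True }
  let ε : F ≃ M := (Equiv.subtypeUnivEquiv fun _ => trivial).trans (Finite.equivFin M).symm
  letI : Field F := ε.field
  let εr : F ≃+* M :=
    { ε with
      map_mul' := fun a b => (show ε (ε.symm (ε a * ε b)) = ε a * ε b from ε.apply_symm_apply _)
      map_add' := fun a b => (show ε (ε.symm (ε a + ε b)) = ε a + ε b from ε.apply_symm_apply _) }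
  refine ⟨F, inferInstance, inferInstance, (Fintype.card_congr (Equiv.subtypeUnivEquiv fun _ => trivial)).trans (Fintype.card_fin _), ?_⟩
  let f : F → G := fun z => val (εr z)
  have hf : ∀ z, f z ∈ V := fun z => hval _
  have fadd : ∀ z z', f (z + z') = f z * f z' := by
    intro z z'; show val (εr (z + z')) = _; rw [map_add]; rfl
  have fmul : ∀ z z', f (z * z') = br (bb (f z)) (aa (f z')) := by
    intro z z'; show val (εr (z * z')) = _; rw [map_mul]; rfl
  have finj : Function.Injective f := valinj.comp εr.injective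
  have fsurj : ∀ v ∈ V, ∃ z, f z = v := fun v hv =>
    ⟨εr.symm (Additive.ofMul ⟨v, hv⟩), by show val (εr (εr.symm _)) = v; rw [εr.apply_symm_apply]; rfl⟩
  have fzero : f 0 = 1 := by show val (εr 0) = 1; rw [map_zero]; rfl
  let g : F → G := fun z => aa (f z)
  have hg : ∀ z, g z ∈ A := fun z => (haa _ (hf z)).1
  have gadd : ∀ z z', g (z + z') = g z * g z' := fun z z' => by
    show aa (f (z + z')) = _; rw [fadd, aamul _ (hf z) _ (hf z')]
  have gsurj : ∀ a ∈ A, ∃ z, g z = a := fun a ha => by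
    obtain ⟨z, hz⟩ := fsurj _ (h.br_mem b₁P (hA.le_PP h ha))
    exact ⟨z, aauniq _ (hf z) a ha hz.symm⟩
  let ψ : (Fin 2 → F) → G := fun z => f (z 0) * g (z 1)
  have ψmem : ∀ z, ψ z ∈ WW V A := fun z => (mem_WW h hA).mpr ⟨_, hf _, _, hg _, rfl⟩
  have ψinj : Function.Injective ψ := by
    intro z z' e
    obtain ⟨e1, e2⟩ := WW_unique h hA (hf _) (hf _) (hg _) (hg _) e
    have e3 : f (z 1) = f (z' 1) := by
      rw [← (haa _ (hf (z 1))).2, ← (haa _ (hf (z' 1))).2]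
      exact congrArg (br b₁) e2
    funext i; fin_cases i
    · exact finj e1
    · exact finj e3
  have ψsurj : ∀ w ∈ WW V A, ∃ z, ψ z = w := by
    intro w hw
    obtain ⟨v, hv, a, ha, rfl⟩ := (mem_WW h hA).mp hw
    obtain ⟨p, hp⟩ := fsurj v hv
    obtain ⟨q, hq⟩ := gsurj a ha
    exact ⟨![p, q], by show f p * g q = _; rw [hp, hq]⟩
  let R : Subgroup (G × SL(2, F)) :=
    { carrier := {p | ∀ z, p.1 * ψ z * p.1⁻¹ = ψ ((p.2 : Matrix (Fin 2) (Fin 2) F).mulVec z)}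
      one_mem' := fun z => by simp
      mul_mem' := fun {p q} hp hq z => by
        show p.1 * q.1 * ψ z * (p.1 * q.1)⁻¹ =
          ψ ((((p.2 * q.2 : SL(2, F))) : Matrix (Fin 2) (Fin 2) F).mulVec z)
        rw [Matrix.SpecialLinearGroup.coe_mul, ← Matrix.mulVec_mulVec, ← hp, ← hq]
        group
      inv_mem' := fun {p} hp z => by
        show p.1⁻¹ * ψ z * p.1⁻¹⁻¹ = ψ ((((p.2⁻¹ : SL(2, F))) : Matrix (Fin 2) (Fin 2) F).mulVec z)
        have e := hp ((((p.2⁻¹ : SL(2, F))) : Matrix (Fin 2) (Fin 2) F).mulVec z)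
        rw [Matrix.mulVec_mulVec, ← Matrix.SpecialLinearGroup.coe_mul, mul_inv_cancel,
          Matrix.SpecialLinearGroup.coe_one, Matrix.one_mulVec] at e
        rw [← e]; group }
  have upper : ∀ x ∈ PP V Q, ∀ c : F, f c = br x a₁ → (x, Linear.upperT c) ∈ R := by
    intro x hx c hc z
    obtain ⟨b, hb, hbx⟩ := exists_B_part h hA hB hn hx
    have hbc : bb (f c) = b := br_inj h hA hB hn ha₁ ha₁1 (hbb _ (hf c)).1 hb
      (by rw [(hbb _ (hf c)).2, hc, (hbx a₁ ha₁).1])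
    have e1 : ((Linear.upperT c : SL(2, F)) : Matrix (Fin 2) (Fin 2) F).mulVec z = ![z 0 + c * z 1, z 1] := by
      funext i; fin_cases i <;>
        simp [Matrix.mulVec, dotProduct, Fin.sum_univ_two, Matrix.SpecialLinearGroup.transvection_coe]
    show x * ψ z * x⁻¹ = ψ _
    rw [e1]
    show x * (f (z 0) * g (z 1)) * x⁻¹ = f (z 0 + c * z 1) * g (z 1)
    rw [fadd, fmul, hbc, ← (hbx _ (hg (z 1))).1]
    calc x * (f (z 0) * g (z 1)) * x⁻¹ = (x * f (z 0)) * g (z 1) * x⁻¹ := by group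
      _ = (f (z 0) * x) * g (z 1) * x⁻¹ := by rw [h.V_central hx (hf _)]
      _ = f (z 0) * (x * g (z 1) * x⁻¹) := by group
      _ = _ := by rw [h.conj_eq (x := x) (y := g (z 1)), mul_assoc]
  have lowerR : ∀ x, (∀ a ∈ A, x * a * x⁻¹ = a) → ∀ c : F, (∀ t, x * f t * x⁻¹ = f t * g (c * t)) →
      (x, Linear.lowerT c) ∈ R := by
    intro x hfix c hc z
    have e1 : ((Linear.lowerT c : SL(2, F)) : Matrix (Fin 2) (Fin 2) F).mulVec z = ![z 0, c * z 0 + z 1] := by
      funext i; fin_cases i <;>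
        simp [Matrix.mulVec, dotProduct, Fin.sum_univ_two, Matrix.SpecialLinearGroup.transvection_coe]
    show x * ψ z * x⁻¹ = ψ _
    rw [e1]
    show x * (f (z 0) * g (z 1)) * x⁻¹ = f (z 0) * g (c * z 0 + z 1)
    rw [gadd]
    calc x * (f (z 0) * g (z 1)) * x⁻¹ = (x * f (z 0) * x⁻¹) * (x * g (z 1) * x⁻¹) := by group
      _ = _ := by rw [hc, hfix _ (hg _), mul_assoc]
  have hfixP' : ∀ x ∈ cj s (PP V Q), ∀ a ∈ A, x * a * x⁻¹ = a := by
    rintro _ ⟨x₀, hx₀, rfl⟩ a ha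
    rw [← hsV] at ha
    obtain ⟨v', hv', rfl⟩ := ha
    show s * x₀ * s⁻¹ * (s * v' * s⁻¹) * (s * x₀ * s⁻¹)⁻¹ = s * v' * s⁻¹
    calc s * x₀ * s⁻¹ * (s * v' * s⁻¹) * (s * x₀ * s⁻¹)⁻¹ = s * ((x₀ * v') * x₀⁻¹) * s⁻¹ := by group
      _ = s * ((v' * x₀) * x₀⁻¹) * s⁻¹ := by rw [h.V_central hx₀ hv']
      _ = _ := by group
  -- a translation determined by a nonzero value
  have lower_val : ∀ x ∈ cj s (PP V Q), ∀ t₀ : F, ∀ a₀ ∈ A, a₀ ≠ 1 →
      x * f t₀ * x⁻¹ = f t₀ * a₀ → ∃ d : F, ∀ t, x * f t * x⁻¹ = f t * g (d⁻¹ * t) := by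
    intro x hx t₀ a₀ ha₀ ha₀1 e
    obtain ⟨b, hb, eb⟩ := br_surj h hA hB hn ha₀ ha₀1 (hf t₀)
    have hb1 : b ≠ 1 := by
      intro e1
      rw [e1, br_one_left h hA] at eb
      rw [← eb, one_mul] at e
      apply ha₀1
      rw [← e]; group
    have hle := lower_eq h hA hB hn hsV hsA hx hb hb1 ha₀ ha₀1 (by rw [eb]; exact e)
    obtain ⟨d, hd⟩ := fsurj _ (h.br_mem (hB.le_PP h hb) a₁P)
    have hbd : bb (f d) = b := br_inj h hA hB hn ha₁ ha₁1 (hbb _ (hf d)).1 hb (by rw [(hbb _ (hf d)).2, hd])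
    have hd0 : d ≠ 0 := by
      intro e1
      rw [e1, fzero] at hd
      exact B_not_commute h hA hB hn ha₁ hb ha₁1 hb1 (br_eq_one_iff.mp hd.symm)
    refine ⟨d, fun t => ?_⟩
    have e1 : f t = br b (g (d⁻¹ * t)) := by
      show f t = br b (aa (f (d⁻¹ * t)))
      rw [← hbd, ← fmul, mul_inv_cancel_left₀ hd0]
    rw [e1]
    exact hle _ (hg _)
  have hP : ∀ x ∈ PP V Q, ∃ γ, (x, γ) ∈ R := by
    intro x hx
    obtain ⟨c, hc⟩ := fsurj _ (h.br_mem hx a₁P)
    exact ⟨_, upper x hx c hc⟩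
  have hP' : ∀ x ∈ cj s (PP V Q), ∃ γ, (x, γ) ∈ R := by
    intro x hx
    have htA : ∀ t ∈ V, ∃ a₃ ∈ A, x * t * x⁻¹ = t * a₃ := by
      obtain ⟨x₀, hx₀, rfl⟩ := hx
      intro t ht'
      rw [← hsA] at ht'
      obtain ⟨a, ha, rfl⟩ := ht'
      refine ⟨s * br x₀ a * s⁻¹, ?_, ?_⟩
      · rw [← hsV]; exact conj_mem_cj (h.br_mem hx₀ (hA.le_PP h ha))
      · show s * x₀ * s⁻¹ * (s * a * s⁻¹) * (s * x₀ * s⁻¹)⁻¹ = (s * a * s⁻¹) * (s * br x₀ a * s⁻¹)
        calc s * x₀ * s⁻¹ * (s * a * s⁻¹) * (s * x₀ * s⁻¹)⁻¹ = s * (x₀ * a * x₀⁻¹) * s⁻¹ := by group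
          _ = s * (br x₀ a * a) * s⁻¹ := by rw [h.conj_eq (x := x₀) (y := a)]
          _ = s * (a * br x₀ a) * s⁻¹ := by rw [hA.commute_V h ha (h.br_mem hx₀ (hA.le_PP h ha))]
          _ = _ := by group
    by_cases hall : ∀ t, x * f t * x⁻¹ = f t
    · refine ⟨1, fun z => ?_⟩
      simp only [Matrix.SpecialLinearGroup.coe_one, Matrix.one_mulVec]
      show x * (f (z 0) * g (z 1)) * x⁻¹ = _
      calc x * (f (z 0) * g (z 1)) * x⁻¹ = (x * f (z 0) * x⁻¹) * (x * g (z 1) * x⁻¹) := by group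
        _ = _ := by rw [hall, hfixP' x hx _ (hg _)]
    · push Not at hall
      obtain ⟨t₀, ht₀⟩ := hall
      obtain ⟨a₀, ha₀, e₀⟩ := htA _ (hf t₀)
      obtain ⟨d, hd⟩ := lower_val x hx t₀ a₀ ha₀ (fun e1 => ht₀ (by rw [e₀, e1, mul_one])) e₀
      exact ⟨_, lowerR x (hfixP' x hx) d⁻¹ hd⟩
  let H := PP V Q ⊔ cj s (PP V Q)
  have hH : ∀ x ∈ H, ∃ γ, (x, γ) ∈ R := by
    have : H ≤ R.map (MonoidHom.fst G SL(2, F)) := by
      refine sup_le (fun x hx => ?_) (fun x hx => ?_)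
      · obtain ⟨γ, hγ⟩ := hP x hx; exact ⟨(x, γ), hγ, rfl⟩
      · obtain ⟨γ, hγ⟩ := hP' x hx; exact ⟨(x, γ), hγ, rfl⟩
    intro x hx
    obtain ⟨⟨x', γ⟩, hγ, rfl⟩ := this hx
    exact ⟨γ, hγ⟩
  have huniq : ∀ x γ γ', (x, γ) ∈ R → (x, γ') ∈ R → γ = γ' := by
    intro x γ γ' h1 h2
    apply Subtype.ext
    refine Matrix.ext_of_mulVec_single fun i => ψinj ?_
    rw [← h1, ← h2]
  choose γ hγ using hH
  let ρ : ↥H →* SL(2, F) :=
    { toFun := fun x => γ x x.2
      map_one' := huniq 1 _ _ (hγ 1 H.one_mem) R.one_mem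
      map_mul' := fun x y => huniq ((x : G) * y) _ _ (hγ _ (x * y).2) (R.mul_mem (hγ x x.2) (hγ y y.2)) }
  have hsurj : Function.Surjective ρ := by
    intro γ₀
    refine Matrix.SL2.transvection_induction (fun γ₀ => ∃ x, ρ x = γ₀) ?_ ?_ γ₀
    · intro i j hij c
      have hup : ∀ c : F, ∃ x, ρ x = Linear.upperT c := fun c =>
        ⟨⟨bb (f c), mem_sup_left (bbP _ (hf c))⟩,
          huniq _ _ _ (hγ _ _) (upper _ (bbP _ (hf c)) c (hbb _ (hf c)).2.symm)⟩
      have hlow : ∀ c : F, ∃ x, ρ x = Linear.lowerT c := by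
        intro c
        rcases eq_or_ne c 0 with rfl | hc
        · exact ⟨1, by rw [map_one]; exact (Matrix.SpecialLinearGroup.transvection_coeff_zero one_ne_zero).symm⟩
        have hu1 : f 1 ≠ 1 := fun e => one_ne_zero (finj (e.trans fzero.symm))
        obtain ⟨x, hx, e, -⟩ := translate' h hA hsV hsA (hf 1) hu1 (hg c)
        have hgc : g c ≠ 1 := by
          intro e1
          apply hc
          apply finj
          rw [fzero, ← (haa _ (hf c)).2]
          show br b₁ (g c) = 1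
          rw [e1]; simp [br]
        obtain ⟨d, hd⟩ := lower_val x hx 1 (g c) (hg c) hgc e
        have hdc : d⁻¹ = c := by
          have e1 := hd 1
          rw [e, mul_one] at e1
          apply finj
          have e2 := mul_left_cancel e1
          rw [← (haa _ (hf c)).2, ← (haa _ (hf d⁻¹)).2]
          exact congrArg (br b₁) e2.symm
        exact ⟨⟨x, mem_sup_right hx⟩, huniq x _ _ (hγ _ _) (lowerR x (hfixP' x hx) c (hdc ▸ hd))⟩
      fin_cases i <;> fin_cases j <;> first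
        | exact absurd rfl hij
        | exact hup c
        | exact hlow c
    · rintro _ _ ⟨x, rfl⟩ ⟨y, rfl⟩
      exact ⟨x * y, map_mul ρ x y⟩
  have hker : ρ.ker = (centralizer (WW V A : Set G)).subgroupOf H := by
    ext x
    rw [MonoidHom.mem_ker, mem_subgroupOf, mem_centralizer_iff]
    constructor
    · intro hx w hw
      obtain ⟨z, rfl⟩ := ψsurj w hw
      have e := hγ x x.2 z
      rw [show γ x x.2 = 1 from hx, Matrix.SpecialLinearGroup.coe_one, Matrix.one_mulVec] at e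
      exact (mul_inv_eq_iff_eq_mul.mp e).symm
    · intro hx
      refine huniq x _ _ (hγ x x.2) fun z => ?_
      simp only [Matrix.SpecialLinearGroup.coe_one, Matrix.one_mulVec]
      show (x : G) * ψ z * (x : G)⁻¹ = ψ z
      rw [← hx _ (ψmem z)]; group
  exact ⟨(QuotientGroup.quotientMulEquivOfEq hker.symm).trans
    (QuotientGroup.quotientKerEquivOfSurjective ρ hsurj)⟩

end Cfsg.Agent.Classif.TIRadical
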